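import Mathlib
import Cfsg.Agent.Pn.Cod

/-! Basic properties of the frame. -/

set_option autoImplicit false
set_option linter.unusedSectionVars false

namespace Cfsg.Agent.Pn

open Cfsg.Agent.Spor Cfsg.Agent.Inv.Fz Subgroup

variable {G : Type*} [Group G]

namespace Fk

variable (F : Fk G) {a a' b b' c d m k : ℕ} {g h : G}

theorem z_zero : F.z 0 = 1 := left_eq_mul.1 (F.z_xor 0 (by decide) 0 (by decide))
theorem z_mem (hc : c < 8) : F.z c ∈ F.Z := (F.memZ _).2 ⟨c, hc, rfl⟩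
theorem z_sq (hc : c < 8) : F.z c * F.z c = 1 := by rw [← F.z_xor c hc c hc, Nat.xor_self, z_zero]
theorem z_inv (hc : c < 8) : (F.z c)⁻¹ = F.z c := inv_eq_of_mul_eq_one_left (F.z_sq hc)
theorem z_eq (hc : c < 8) (hd : d < 8) : F.z c = F.z d ↔ c = d :=
  ⟨fun e => eq_of_xor (F.z_inj _ (xor8 hc hd) (by rw [F.z_xor c hc d hd, e, F.z_sq hd])), fun e => e ▸ rfl⟩
theorem z_eq_one (hc : c < 8) : F.z c = 1 ↔ c = 0 := ⟨F.z_inj c hc, fun e => e ▸ F.z_zero⟩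
theorem sqZ : ∀ v ∈ F.Z, v * v = 1 := fun v hv => by obtain ⟨a, ha, rfl⟩ := (F.memZ v).1 hv; exact F.z_sq ha
theorem z_comm (hc : c < 8) (hd : d < 8) : F.z c * F.z d = F.z d * F.z c := by
  rw [← F.z_xor c hc d hd, Nat.xor_comm, F.z_xor d hd c hc]
theorem s_mem : F.s ∈ F.Z := F.z_mem (by decide)
theorem s_ne : F.s ≠ 1 := fun e => absurd (F.z_inj _ (by decide) e) (by decide)
theorem s_sq : F.s * F.s = 1 := F.z_sq (by decide)
theorem mem_H : g ∈ F.H ↔ F.s * g = g * F.s := mem_centralizer_singleton_iff.trans eq_comm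
theorem card_Z : Nat.card F.Z = 8 := by
  rw [← Nat.card_congr (Equiv.ofBijective (fun c : Fin 8 => (⟨F.z c, F.z_mem c.2⟩ : F.Z))
    ⟨fun c d e => Fin.ext ((F.z_eq c.2 d.2).1 (congrArg Subtype.val e)),
      fun x => let ⟨c, hc, e⟩ := (F.memZ _).1 x.2; ⟨⟨c, hc⟩, Subtype.ext e⟩⟩), Nat.card_fin]
theorem mem_F2 : g ∈ F.F2 ↔ ∃ c < 4, F.z c = g := by
  refine ⟨fun h => closure_induction (p := fun g _ => ∃ c < 4, F.z c = g) ?_ ⟨0, by decide, F.z_zero⟩ ?_ ?_ h, ?_⟩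
  · rintro _ (rfl | rfl); exacts [⟨1, by decide, rfl⟩, ⟨2, by decide, rfl⟩]
  · rintro _ _ - - ⟨c, hc, rfl⟩ ⟨d, hd, rfl⟩
    exact ⟨c ^^^ d, Nat.xor_lt_two_pow (n := 2) hc hd, F.z_xor c (by omega) d (by omega)⟩
  · rintro _ - ⟨c, hc, rfl⟩; exact ⟨c, hc, (F.z_inv (by omega)).symm⟩
  · rintro ⟨c, hc, rfl⟩
    have h1 : F.z 1 ∈ F.F2 := subset_closure (Or.inl rfl)
    have h2 : F.z 2 ∈ F.F2 := subset_closure (Or.inr rfl)
    interval_cases c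
    exacts [F.z_zero ▸ one_mem _, h1, h2, F.z_xor 1 (by decide) 2 (by decide) ▸ mul_mem h1 h2]

variable {F}

theorem Lc.lt (h : F.Lc g m) : m < 4096 := h.1
theorem Lc.mem (h : F.Lc g m) : g ∈ F.L := (F.memL g).2 ⟨m, h.1, h.2⟩
theorem exists_lc (h : g ∈ F.L) : ∃ m, F.Lc g m := let ⟨m, h1, h2⟩ := (F.memL g).1 h; ⟨m, h1, h2⟩
variable (F) in
theorem lc_l (hm : m < 4096) : F.Lc (F.l m) m := ⟨hm, 0, by decide, by rw [z_zero, mul_one]⟩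
theorem comm_LZ (hg : g ∈ F.L) (hh : h ∈ F.Z) : g * h = h * g := by
  obtain ⟨m, hm, c, hc, rfl⟩ := exists_lc hg
  obtain ⟨d, hd, rfl⟩ := (F.memZ _).1 hh
  rw [mul_assoc, F.z_comm hc hd, ← mul_assoc, F.zc m hm d hd, mul_assoc]
theorem Lc.mul_Z (h1 : F.Lc g m) (hh : h ∈ F.Z) : F.Lc (g * h) m := by
  obtain ⟨hm, c, hc, rfl⟩ := h1
  obtain ⟨d, hd, rfl⟩ := (F.memZ _).1 hh
  exact ⟨hm, c ^^^ d, xor8 hc hd, by rw [F.z_xor c hc d hd, mul_assoc]⟩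
theorem Lc.mul (h1 : F.Lc g m) (h2 : F.Lc h k) : F.Lc (g * h) (m ^^^ k) := by
  obtain ⟨hm, c, hc, rfl⟩ := h1
  obtain ⟨hk, d, hd, rfl⟩ := h2
  obtain ⟨e, he, h3⟩ := F.l_xor m hm k hk
  have : F.l m * F.z c * (F.l k * F.z d) = F.l (m ^^^ k) * (F.z e * F.z c * F.z d) := by
    rw [mul_assoc, ← mul_assoc (F.z c), ← F.zc k hk c hc, ← mul_assoc, ← mul_assoc, h3]; group
  exact this ▸ (F.lc_l (xor4096 hm hk)).mul_Z (mul_mem (mul_mem (F.z_mem he) (F.z_mem hc)) (F.z_mem hd))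
theorem l_zero : F.l 0 ∈ F.Z := by
  obtain ⟨c, hc, e⟩ := F.l_xor 0 (by decide) 0 (by decide)
  exact mul_left_cancel e ▸ F.z_mem hc
theorem lc_zero : F.Lc g 0 ↔ g ∈ F.Z := ⟨fun ⟨_, _, hc, e⟩ => e ▸ mul_mem l_zero (F.z_mem hc), fun h => by
  simpa using (F.lc_l (m := 0) (by decide)).mul_Z (mul_mem (inv_mem l_zero) h)⟩
theorem Lc.mem_Z (h : F.Lc g m) : g ∈ F.Z ↔ m = 0 := ⟨fun hz => by
  obtain ⟨hm, c, hc, rfl⟩ := h
  exact F.l_inj m hm ((mul_mem_cancel_right (F.z_mem hc)).1 hz), fun e => lc_zero.1 (e ▸ h)⟩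
theorem Lc.sq (h : F.Lc g m) : g * g = F.z (qM m) := by
  obtain ⟨hm, c, hc, rfl⟩ := h
  rw [mul_assoc, ← mul_assoc (F.z c), ← F.zc m hm c hc, mul_assoc, F.z_sq hc, mul_one, F.sq m hm]
theorem Lc.inv (h : F.Lc g m) : F.Lc g⁻¹ m := by
  have := h.mul_Z (inv_mem (h.sq ▸ F.z_mem (qM_lt m) : g * g ∈ F.Z))
  rwa [mul_inv_rev, mul_inv_cancel_left] at this
theorem Lc.unique (h1 : F.Lc g m) (h2 : F.Lc g k) : m = k :=
  eq_of_xor ((h1.mul h2.inv).mem_Z.1 (by rw [mul_inv_cancel]; exact one_mem _))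
theorem Lc.of_eq (h : F.Lc g m) (e : m = k) : F.Lc g k := e ▸ h
theorem Lc.eq_mul (h1 : F.Lc g m) (h2 : F.Lc h m) : ∃ c < 8, h = g * F.z c := by
  obtain ⟨c, hc, e⟩ := (F.memZ _).1 ((h1.inv.mul h2).mem_Z.2 (Nat.xor_self m))
  exact ⟨c, hc, by rw [e, mul_inv_cancel_left]⟩
theorem Lc.comm (h1 : F.Lc g m) (h2 : F.Lc h k) : g * h * g⁻¹ * h⁻¹ = F.z (cM m k) := by
  obtain ⟨c, hc, rfl⟩ := (F.lc_l h1.lt).eq_mul h1
  obtain ⟨d, hd, rfl⟩ := (F.lc_l h2.lt).eq_mul h2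
  have e1 : Commute (F.z c) (F.l k) := (F.zc k h2.lt c hc).symm
  have e2 : Commute (F.z d) (F.l m) := (F.zc m h1.lt d hd).symm
  have e3 : Commute (F.z c) (F.z d) := F.z_comm hc hd
  rw [← F.comm m h1.lt k h2.lt]
  calc _ = F.l m * (F.z c * (F.l k * F.z d) * (F.z c)⁻¹) * (F.l m)⁻¹ * (F.l k * F.z d)⁻¹ := by group
    _ = F.l m * F.l k * (F.z d * (F.l m)⁻¹ * (F.z d)⁻¹) * (F.l k)⁻¹ := by
      rw [(e1.mul_right e3).mul_inv_cancel]; group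
    _ = _ := by rw [e2.inv_right.mul_inv_cancel]
theorem Lc.comm_iff (h1 : F.Lc g m) (h2 : F.Lc h k) : g * h = h * g ↔ cM m k = 0 := by
  rw [← F.z_eq_one (cM_lt m k), ← h1.comm h2, mul_inv_eq_one, mul_inv_eq_iff_eq_mul]
variable (F) in
theorem Z_le_L : F.Z ≤ F.L := fun _ h => (lc_zero.2 h).mem
theorem pow_four (h : g ∈ F.L) : g ^ 4 = 1 := by
  obtain ⟨m, hm⟩ := exists_lc h
  rw [show g ^ 4 = g * g * (g * g) by simp [pow_succ, mul_assoc], hm.sq, F.z_sq (qM_lt m)]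
variable (F) in
theorem pg_L : IsPGroup 2 F.L := fun x => ⟨2, Subtype.ext (pow_four x.2)⟩

theorem mem_sub : g ∈ F.sub k ↔ ∃ m, F.Lc g m ∧ m &&& k = 0 := by
  refine ⟨fun h => closure_induction (fun _ h => h) ⟨0, lc_zero.2 (one_mem _), Nat.zero_and k⟩ ?_ ?_ h,
    fun h => subset_closure h⟩
  · rintro _ _ - - ⟨a, ha, h⟩ ⟨b, hb, h'⟩
    exact ⟨a ^^^ b, ha.mul hb, by rw [Nat.and_xor_distrib_right, h, h']; rfl⟩
  · rintro _ - ⟨a, ha, h⟩; exact ⟨a, ha.inv, h⟩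
theorem Lc.mem_sub (h : F.Lc g m) : g ∈ F.sub k ↔ m &&& k = 0 :=
  Fk.mem_sub.trans ⟨fun ⟨_, h', e⟩ => h'.unique h ▸ e, fun e => ⟨m, h, e⟩⟩
variable (F) in
theorem sub_le (k : ℕ) : F.sub k ≤ F.L := fun _ h => let ⟨_, h, _⟩ := mem_sub.1 h; h.mem
variable (F) in
theorem Z_le_sub (k : ℕ) : F.Z ≤ F.sub k := fun _ h => (lc_zero.2 h).mem_sub.2 (Nat.zero_and k)

/-- Counting elements of `L` by codes. -/
theorem ncard_L (P : G → Prop) (q : ℕ → Bool) (h : ∀ g m, F.Lc g m → (P g ↔ q m = true)) :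
    {g | g ∈ F.L ∧ P g}.ncard = 8 * cnt q := by
  have e : {g | g ∈ F.L ∧ P g} = (fun p : ℕ × ℕ => F.l p.2 * F.z p.1) ''
      ((Finset.range 8 : Set ℕ) ×ˢ {m | m < 4096 ∧ q m = true}) := by
    ext g
    simp only [Set.mem_ofPred_eq, Set.mem_image, Set.mem_prod, Finset.coe_range, Set.mem_Iio, Prod.exists]
    exact ⟨fun ⟨hg, hp⟩ => let ⟨m, hm, c, hc, e⟩ := exists_lc hg
      ⟨c, m, ⟨hc, hm, (h g m ⟨hm, c, hc, e⟩).1 hp⟩, e.symm⟩,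
      fun ⟨c, m, ⟨hc, hm, hq⟩, e⟩ => ⟨Lc.mem ⟨hm, c, hc, e.symm⟩, (h g m ⟨hm, c, hc, e.symm⟩).2 hq⟩⟩
  rw [e, Set.InjOn.ncard_image, Set.ncard_prod, Set.ncard_coe_finset, Finset.card_range,
    ncard_lt _ q fun _ _ => Iff.rfl]
  rintro ⟨c, m⟩ ⟨hc, hm, -⟩ ⟨d, k⟩ ⟨hd, hk, -⟩ e
  simp only [Finset.coe_range, Set.mem_Iio] at hc hd e hm hk
  obtain rfl : m = k := Lc.unique (F := F) ⟨hm, c, hc, rfl⟩ ⟨hk, d, hd, e⟩
  rw [(F.z_eq hc hd).1 (mul_left_cancel e)]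
theorem card_of_le {U : Subgroup G} (hU : U ≤ F.L) (q : ℕ → Bool) (h : ∀ g m, F.Lc g m → (g ∈ U ↔ q m = true)) :
    Nat.card U = 8 * cnt q := by
  rw [← ncard_L _ q h, ← Nat.card_coe_set_eq]
  exact Nat.card_congr (Equiv.subtypeEquivRight fun _ => ⟨fun h => ⟨hU h, h⟩, fun h => h.2⟩)
variable (F) in
/-- Close the goal `8 * cnt _ = n` by `decide +kernel`. -/
theorem card_sub (k : ℕ) : Nat.card (F.sub k) = 8 * cnt fun m => Nat.beq (Nat.land m k) 0 :=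
  card_of_le (F.sub_le k) _ fun _ _ h => h.mem_sub.trans (nbeq_iff _ _).symm
variable (F) in
theorem card_L : Nat.card F.L = 2 ^ 15 :=
  (card_of_le le_rfl (fun _ => true) fun _ _ h => ⟨fun _ => rfl, fun _ => h.mem⟩).trans (by decide +kernel)

theorem Ic.mem (h : F.Ic g a b) : g ∈ F.K := h.1
theorem Ic.memA (h : F.Ic g a b) : a ∈ LS := h.2.1 ▸ F.A_mem g h.1
theorem Ic.memB (h : F.Ic g a b) : b ∈ LG := h.2.2 ▸ F.B_mem g h.1
theorem Ic.unique (h : F.Ic g a b) (h' : F.Ic g a' b') : a = a' ∧ b = b' :=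
  ⟨h.2.1.symm.trans h'.2.1, h.2.2.symm.trans h'.2.2⟩
theorem exists_ic (h : g ∈ F.K) : ∃ a b, F.Ic g a b := ⟨_, _, h, rfl, rfl⟩
variable (F) in
theorem lift (ha : a ∈ LS) (hb : b ∈ LG) : ∃ g, F.Ic g a b := F.surj a ha b hb
theorem Ic.of_eq (h : F.Ic g a b) (e : a = a') (e' : b = b') : F.Ic g a' b' := e ▸ e' ▸ h
theorem Ic.mul (h1 : F.Ic g a b) (h2 : F.Ic h a' b') : F.Ic (g * h) (mN a a') (mU b b') :=
  ⟨mul_mem h1.1 h2.1, by rw [F.A_mul g h1.1 h h2.1, h1.2.1, h2.2.1], by rw [F.B_mul g h1.1 h h2.1, h1.2.2, h2.2.2]⟩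
theorem ic_id : F.Ic g iN iU ↔ g ∈ F.L :=
  ⟨fun h => (F.ker g h.1).2 h.2, fun h => ⟨F.L_le h, (F.ker g (F.L_le h)).1 h⟩⟩
theorem Ic.mem_L (h : F.Ic g a b) : g ∈ F.L ↔ a = iN ∧ b = iU :=
  ⟨fun h' => h.unique (ic_id.2 h'), fun e => ic_id.1 (h.of_eq e.1 e.2)⟩
theorem Ic.inv (h : F.Ic g a b) : F.Ic g⁻¹ (vN a) (vU b) := by
  obtain ⟨a', b', h'⟩ := exists_ic (inv_mem h.1)
  have e := (h.mul h').mem_L.1 (by rw [mul_inv_cancel]; exact one_mem _)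
  refine h'.of_eq ?_ ?_
  · rw [← (vN_spec a' h'.memA).2.2.2.2.1, ← (vN_spec a h.memA).2.2.1, mN_assoc (vN_mem h.memA) h.memA h'.memA, e.1,
      (vN_spec _ (vN_mem h.memA)).2.2.2.1]
  · rw [← (vU_spec b' h'.memB).2.2.2.2.1, ← (vU_spec b h.memB).2.2.1, mU_assoc (vU_mem h.memB) h.memB h'.memB, e.2,
      (vU_spec _ (vU_mem h.memB)).2.2.2.1]
theorem Ic.conj (h1 : F.Ic g a b) (h2 : F.Ic h a' b') :
    F.Ic (g * h * g⁻¹) (mN (mN a a') (vN a)) (mU (mU b b') (vU b)) := (h1.mul h2).mul h1.inv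
theorem Ic.mul_L (h1 : F.Ic g a b) (hh : h ∈ F.L) : F.Ic (g * h) a b :=
  (h1.mul (ic_id.2 hh)).of_eq (vN_spec a h1.memA).2.2.2.1 (vU_spec b h1.memB).2.2.2.1
theorem Ic.L_mul (h1 : F.Ic g a b) (hh : h ∈ F.L) : F.Ic (h * g) a b :=
  ((ic_id.2 hh).mul h1).of_eq (vN_spec a h1.memA).2.2.2.2.1 (vU_spec b h1.memB).2.2.2.2.1
theorem Ic.div_mem (h1 : F.Ic g a b) (h2 : F.Ic h a b) : g⁻¹ * h ∈ F.L :=
  ic_id.1 ((h1.inv.mul h2).of_eq (vN_spec a h1.memA).2.2.1 (vU_spec b h1.memB).2.2.1)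
theorem Ic.conj_z (h : F.Ic g a b) (hc : c < 8) : g * F.z c * g⁻¹ = F.z (aZ b c) := h.2.2 ▸ F.act_z g h.1 c hc
theorem Ic.conj_l (h1 : F.Ic g a b) (h2 : F.Lc h m) : F.Lc (g * h * g⁻¹) (aM a b m) := by
  obtain ⟨hm, c, hc, rfl⟩ := h2
  obtain ⟨d, hd, e⟩ := F.act_l g h1.1 m hm
  have : g * (F.l m * F.z c) * g⁻¹ = g * F.l m * g⁻¹ * (g * F.z c * g⁻¹) := by group
  rw [this, h1.conj_z hc, e, h1.2.1, h1.2.2]
  exact ((F.lc_l (aM_lt _ _ _)).mul_Z (F.z_mem hd)).mul_Z (F.z_mem (aZ_lt b h1.memB c hc))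
theorem Ic.comm_l (h1 : F.Ic g a b) (h2 : F.Lc h m) : F.Lc (g * h * g⁻¹ * h⁻¹) (aM a b m ^^^ m) :=
  (h1.conj_l h2).mul h2.inv
theorem Ic.fix (h1 : F.Ic g a b) (h2 : F.Lc h m) (e : g * h = h * g) : aM a b m = m :=
  (h1.conj_l h2).unique (by rwa [e, mul_inv_cancel_right])
theorem Ic.comm_z (h : F.Ic g a b) (hc : c < 8) : g * F.z c = F.z c * g ↔ aZ b c = c := by
  rw [← F.z_eq (aZ_lt b h.memB c hc) hc, ← h.conj_z hc, mul_inv_eq_iff_eq_mul]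
theorem Ic.mem_H (h : F.Ic g a b) : g ∈ F.H ↔ aZ b 1 = 1 := F.mem_H.trans (eq_comm.trans (h.comm_z (by decide)))
variable (F) in
theorem cZ_le_K : centralizer (F.Z : Set G) ≤ F.K := centralizer_le_normalizer _
theorem Ic.mem_cZ (h : F.Ic g a b) : g ∈ centralizer (F.Z : Set G) ↔ b = iU := by
  refine ⟨fun k => ?_, fun e v hv => ?_⟩
  · have k' : ∀ c < 8, aZ b c = c := fun c hc => (h.comm_z hc).1 (k _ (F.z_mem hc)).symm
    exact eq_iU_of_aZ b h.memB (k' 1 (by decide)) (k' 2 (by decide)) (k' 4 (by decide))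
  · obtain ⟨c, hc, rfl⟩ := (F.memZ v).1 hv
    exact ((h.comm_z hc).2 (e ▸ aZ_iU c hc)).symm
variable (F) in
theorem L_le_cZ : F.L ≤ centralizer (F.Z : Set G) := fun _ h => (ic_id.2 h).mem_cZ.2 rfl
variable (F) in
theorem L_le_H : F.L ≤ F.H := fun _ h => F.mem_H.2 (comm_LZ h F.s_mem).symm
variable (F) in
theorem K_le_nL : F.K ≤ normalizer (F.L : Set G) := fun g hg => mem_normalizer_iff.2 fun x => by
  obtain ⟨a, b, h⟩ := exists_ic hg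
  refine ⟨fun hx => let ⟨_, k⟩ := exists_lc hx; (h.conj_l k).mem, fun hx => ?_⟩
  obtain ⟨_, k⟩ := exists_lc hx
  simpa [mul_assoc] using (h.inv.conj_l k).mem

/-- Lifts of odd order. -/
theorem Ic.exists_odd (h : F.Ic g a b) {n : ℕ} (hn : Odd n) (e : g ^ n ∈ F.L) :
    ∃ x ∈ zpowers g, F.Ic x a b ∧ x ^ n = 1 := by
  obtain ⟨j, hj⟩ : ∃ j, 4 ∣ 1 + n * j := by
    obtain ⟨r, rfl⟩ := hn
    exact ⟨2 * r + 3, r * r + 2 * r + 1, by ring⟩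
  obtain ⟨i, hi⟩ := hj
  refine ⟨g * (g ^ n) ^ j, mul_mem (mem_zpowers g) (pow_mem (pow_mem (mem_zpowers g) n) j),
    h.mul_L (pow_mem e j), ?_⟩
  rw [← pow_mul, ← pow_succ', add_comm, hi, ← pow_mul, show 4 * i * n = n * 4 * i by ring, pow_mul, pow_mul,
    pow_four e, one_pow]
variable (F) in
/-- An element of order three over `(a, b)`. -/
theorem exists_three (ha : a ∈ LS) (hb : b ∈ LG) (h1 : mN a (mN a a) = iN) (h2 : mU b (mU b b) = iU) :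
    ∃ x, F.Ic x a b ∧ x ^ 3 = 1 := by
  obtain ⟨g, h⟩ := F.lift ha hb
  obtain ⟨x, -, k⟩ := h.exists_odd (n := 3) (by decide) (by
    rw [show g ^ 3 = g * (g * g) by simp [pow_succ, mul_assoc]]; exact ic_id.1 ((h.mul (h.mul h)).of_eq h1 h2))
  exact ⟨x, k⟩

variable [Finite G]

theorem Ic.mem_norm_sub (h : F.Ic g a b) (e : ∀ m < 4096, m &&& k = 0 → aM a b m &&& k = 0) :
    g ∈ normalizer (F.sub k : Set G) := mem_normalizer_of_conj_mem fun _ hx =>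
  let ⟨m, h1, h2⟩ := Fk.mem_sub.1 hx; (h.conj_l h1).mem_sub.2 (e m h1.lt h2)

/-- The order of a subgroup between `L` and `K`. -/
theorem card_pre {P : Subgroup G} (h2 : P ≤ F.K) (q r : ℕ → Bool)
    (h : ∀ g a b, F.Ic g a b → (g ∈ P ↔ q a = true ∧ r b = true)) :
    Nat.card P = 2 ^ 15 * (LS.countP q * LG.countP r) := by
  classical
  have hf : ∀ p : ℕ × ℕ, ∃ g, p.1 ∈ LS → p.2 ∈ LG → F.Ic g p.1 p.2 := fun p => by
    by_cases k : p.1 ∈ LS ∧ p.2 ∈ LG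
    · exact (F.lift k.1 k.2).imp fun _ h _ _ => h
    · exact ⟨1, fun h1 h2 => absurd ⟨h1, h2⟩ k⟩
  choose f hf using hf
  have e : (P : Set G) = (fun p : G × (ℕ × ℕ) => f p.2 * p.1) ''
      ((F.L : Set G) ×ˢ (↑((LS.filter q).toFinset ×ˢ (LG.filter r).toFinset) : Set (ℕ × ℕ))) := by
    ext g
    simp only [SetLike.mem_coe, Set.mem_image, Set.mem_prod, Finset.mem_product, List.mem_toFinset,
      List.mem_filter, Prod.exists]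
    refine ⟨fun hg => ?_, fun ⟨x, a, b, ⟨hx, ⟨ha, qa⟩, hb, rb⟩, e⟩ => ?_⟩
    · obtain ⟨a, b, k⟩ := exists_ic (h2 hg)
      exact ⟨_, a, b, ⟨(hf (a, b) k.memA k.memB).div_mem k, ⟨k.memA, ((h g a b k).1 hg).1⟩, k.memB,
        ((h g a b k).1 hg).2⟩, by group⟩
    · exact (h g a b (e ▸ (hf (a, b) ha hb).mul_L hx)).2 ⟨qa, rb⟩
  rw [← SetLike.coe_sort_coe, Nat.card_coe_set_eq, e, Set.InjOn.ncard_image, Set.ncard_prod,
    ← Nat.card_coe_set_eq, SetLike.coe_sort_coe, card_L, Set.ncard_coe_finset, Finset.card_product,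
    List.toFinset_card_of_nodup (nodup_LS.filter _), List.toFinset_card_of_nodup (nodup_LG.filter _),
    List.countP_eq_length_filter, List.countP_eq_length_filter]
  rintro ⟨x, a, b⟩ ⟨hx, hp⟩ ⟨x', a', b'⟩ ⟨hx', hp'⟩ e
  simp only [Finset.coe_product, Set.mem_prod, Finset.mem_coe, List.mem_toFinset, List.mem_filter] at hp hp' e
  obtain ⟨rfl, rfl⟩ := ((hf (a, b) hp.1.1 hp.2.1).mul_L hx).unique (e ▸ (hf (a', b') hp'.1.1 hp'.2.1).mul_L hx')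
  rw [mul_left_cancel e]
variable (F) in
theorem card_K : Nat.card F.K = 2 ^ 21 * 315 :=
  (card_pre le_rfl (fun _ => true) (fun _ => true) fun _ _ _ h => ⟨fun _ => ⟨rfl, rfl⟩, fun _ => h.1⟩).trans
    (by decide +kernel)

theorem Ic.mem_T (h : F.Ic g a b) : g ∈ F.T ↔ aN a 1 = 1 ∧ (aU b 1 = 1 ∧ aZ b 1 = 1) := by
  have k : ∀ a ∈ LS, ∀ b ∈ LG, aM a b 1 = aN a 1 * sp (aU b 1) := fun a ha b hb =>
    aM_sp (n := 1) (u := 1) ha hb (by decide) (by decide)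
  have k1 : ∀ n < 16, ∀ u < 8, n * sp u = 1 → n = 1 ∧ u = 1 := by decide +kernel
  have k2 : ∀ m < 4096, m &&& 0xFFE = 0 → m = 0 ∨ m = 1 := all4096 (by decide +kernel)
  refine ⟨fun ⟨⟨_, h1⟩, h2⟩ => ?_, fun ⟨h1, h2, h3⟩ => ⟨⟨h.1, h.mem_H.2 h3⟩, h.mem_norm_sub fun m hm e => ?_⟩⟩
  · have l1 := F.lc_l (m := 1) (by decide)
    have e := (h.conj_l l1).mem_sub.1 ((mem_normalizer_iff.1 h2 _).1 (l1.mem_sub.2 (by decide)))
    rcases k2 _ (aM_lt _ _ _) e with e | e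
    · have := (mem_normalizer_iff.1 h.1 _).2 ((h.conj_l l1).mem_Z.2 e)
      exact absurd (l1.mem_Z.1 this) (by decide)
    · rw [k a h.memA b h.memB] at e
      have := k1 _ (aN_lt _ _) _ (aU_lt b h.memB 1 (by decide)) e
      exact ⟨this.1, this.2, h.mem_H.1 h1⟩
  · rcases k2 m hm e with rfl | rfl
    · rw [aM_zero h.memA]; rfl
    · rw [k a h.memA b h.memB, h1, h2]; decide
variable (F)
theorem T_le_K : F.T ≤ F.K := inf_le_left.trans inf_le_left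
theorem T_le_H : F.T ≤ F.H := inf_le_left.trans inf_le_right
theorem L_le_T : F.L ≤ F.T := fun _ h => (ic_id.2 h).mem_T.2 (by decide +kernel)
theorem card_T : Nat.card F.T = 2 ^ 21 :=
  (card_pre F.T_le_K (fun a => Nat.beq (aN a 1) 1) (fun b => Nat.beq (aU b 1) 1 && Nat.beq (aZ b 1) 1)
    fun _ _ _ h => by simpa using h.mem_T).trans (by decide +kernel)
theorem pg_T : IsPGroup 2 F.T := IsPGroup.of_card F.card_T
theorem syl_K : IsSylIn 2 F.T F.K := isSylIn_of_not_dvd F.T_le_K F.pg_T fun h => by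
  have := card_mul_relIndex F.T_le_K
  rw [card_T, card_K] at this
  omega

end Fk

end Cfsg.Agent.Pn
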