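import Mathlib
import Cfsg.Agent.Pn.Cod

/-! The module `L/Z` is the tensor product. -/

set_option autoImplicit false

namespace Cfsg.Agent.Pn

open Cfsg.Agent.Spor Cfsg.Agent.Inv.Fz Subgroup
open Cfsg.Agent.R24 (Wc Md NoOdd)

namespace ModU

variable {M : Type*} [CommGroup M]

theorem eq_of_mul (sq : ∀ m : M, m * m = 1) {x y : M} (h : x * y = 1) : x = y :=
  mul_right_cancel (h.trans (sq y).symm)

theorem step (sq : ∀ m : M, m * m = 1) {S : M → Prop} (hS : ∀ x y, S x → S y → S (x * y))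
    (f : M →* M) (hf : ∀ x, S x → S (f x)) (ff : ∀ x, f (f x) = x) (h : ∃ x, x ≠ 1 ∧ S x) :
    ∃ x, x ≠ 1 ∧ S x ∧ f x = x := by
  obtain ⟨x, x1, hx⟩ := h
  by_cases e : f x = x
  · exact ⟨x, x1, hx, e⟩
  · exact ⟨x * f x, fun h => e (eq_of_mul sq h).symm, hS _ _ hx (hf x hx), by
      rw [map_mul, ff, mul_comm]⟩

theorem d8 (sq : ∀ m : M, m * m = 1) {S : M → Prop} (hS : ∀ x y, S x → S y → S (x * y))
    (f g k : M →* M) (hf : ∀ x, S x → S (f x)) (hg : ∀ x, S x → S (g x)) (hk : ∀ x, S x → S (k x))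
    (ff : ∀ x, f (f x) = x) (gg : ∀ x, g (g x) = x) (kk : ∀ x, k (k x) = x)
    (fg : ∀ x, f (g x) = g (f x)) (fk : ∀ x, f (k x) = k (f x)) (gk : ∀ x, g (k x) = k (f (g x)))
    (h : ∃ x, x ≠ 1 ∧ S x) : ∃ x, x ≠ 1 ∧ S x ∧ f x = x ∧ g x = x ∧ k x = x := by
  have h1 := step sq hS f hf ff h
  have h2 := step sq (S := fun x => S x ∧ f x = x)
    (fun x y a b => ⟨hS _ _ a.1 b.1, by rw [map_mul, a.2, b.2]⟩) g
    (fun x a => ⟨hg x a.1, by rw [fg, a.2]⟩) gg h1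
  obtain ⟨x, x1, a, b⟩ := step sq (S := fun x => (S x ∧ f x = x) ∧ g x = x)
    (fun x y a b => ⟨⟨hS _ _ a.1.1 b.1.1, by rw [map_mul, a.1.2, b.1.2]⟩, by rw [map_mul, a.2, b.2]⟩) k
    (fun x a => ⟨⟨hk x a.1.1, by rw [fk, a.1.2]⟩, by rw [gk, a.2, a.1.2]⟩) kk h2
  exact ⟨x, x1, a.1.1, a.1.2, a.2, b⟩

/-- The central involution of the stabiliser of `1`. -/
def cz : ℕ := nat_lit 0xcdef98ba67453210
/-- A second involution of `E4`. -/
def ce : ℕ := nat_lit 0xdcfeab8945673210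
/-- The Frobenius. -/
def cp : ℕ := nat_lit 0xab98efdc67542310
/-- An element of order four. -/
def c1 : ℕ := nat_lit 0x89badcef76452310
/-- Elements moving `1` to `n`. -/
def gN (n : ℕ) : ℕ := [iN, iN, 0x4657a8b9dfce3120, 0x4756fced9a8b2130, 0x26ea73bfd9158c40,
  0x27d8639ceb14af50, 0x24f9538eca17bd60, 0x25cb43adf8169e70, 0x195da2e67f3bc480, 0x186fb2c54d3ae790,
  0x1b4e82d76c39f5a0, 0x1a7c92f45e38d6b0, 0x1d59f3b76a2e84c0, 0x1c7ae385492fb6d0, 0x1f68d3a45b2c97e0,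
  0x1e4bc396782da5f0].getD n 0
/-- The elements of order three. -/
def L3 : List ℕ := [0x1f68d3a45b2c97e0, 0x29f4a17ce5386db0, 0x37bf62ea9d15c840, 0x4756fced9a8b2130,
  0x53e89f2417acdb60, 0x5647cfdeb8a92130, 0x591d3f7be2a684c0, 0x5cb26f814da37e90, 0x6574edfca9b82130,
  0x7465decf8b9a2130, 0x8ab96457fdce1320, 0x9ba85764dfec1320, 0xa26ed5193bf74c80, 0xa7c185e394f2b6d0,
  0xa89b7546cefd1320, 0xad3425bc61f8e970, 0xb98a4675ecdf1320, 0xc963d872eb41fa50, 0xd7281be4936c5fa0,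
  0xe1b4693c2d78a5f0]
/-- Elements that extract the bits. -/
def gE (j : ℕ) : ℕ := [0x86f1a4d3b5c297e0, 0x8d729c63be41af50, 0x8ab96457fdce1320, iN].getD j 0
/-- A cyclic group of order seven. -/
def R7 : List ℕ := [273, 94, 426, 187, 229, 335, 500]
/-- The Borel subgroup. -/
def B8 : List ℕ := [273, 281, 337, 345, 401, 409, 465, 473]
/-- The element of `R7` moving `1` to `u`. -/
def gU (u : ℕ) : ℕ := [273, 273, 426, 187, 500, 229, 94, 335].getD u 0

theorem gN_spec : ∀ n < 16, n ≠ 0 → gN n ∈ LS ∧ aN (gN n) 1 = n := by decide +kernel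
theorem aN_ne : ∀ a ∈ LS, ∀ n < 16, n ≠ 0 → aN a n ≠ 0 := by decide +kernel
theorem L3_spec : ∀ x ∈ L3, x ∈ LS ∧ o3 x := by decide +kernel
theorem L3_cyc' : ∀ n < 16, ∀ k < 16, (n = 0 ∨ k = 0 ∨ n = k) ∨
    (L3.any fun x => aN x n == k && aN x k == n ^^^ k && aN x (n ^^^ k) == n) = true := by
  decide +kernel
theorem L3_cyc (n : ℕ) (hn : n < 16) (k : ℕ) (hk : k < 16) (h1 : n ≠ 0) (h2 : k ≠ 0) (h3 : n ≠ k) :
    ∃ x ∈ L3, aN x n = k ∧ aN x k = n ^^^ k ∧ aN x (n ^^^ k) = n := by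
  rcases L3_cyc' n hn k hk with (h | h | h) | h
  · exact absurd h h1
  · exact absurd h h2
  · exact absurd h h3
  · simpa [and_assoc] using h
theorem gE_spec : ∀ j < 4, gE j ∈ LS ∧ ∀ n < 16,
    (aN (gE j) n ^^^ aN cp (aN (gE j) n)) ^^^ aN c1 (aN (gE j) n ^^^ aN cp (aN (gE j) n)) = bit n j := by
  decide +kernel
theorem D8_cases : ∀ a ∈ LS, aN a 1 = 1 → a = iN ∨ a = cz ∨ a = ce ∨ a = cp ∨ a = mN cz ce ∨
    a = mN cz cp ∨ a = mN ce cp ∨ a = mN cz (mN ce cp) := by decide +kernel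
theorem c_mem : cz ∈ LS ∧ ce ∈ LS ∧ cp ∈ LS ∧ c1 ∈ LS := by decide +kernel
theorem R7_mem : ∀ r ∈ R7, r ∈ LG := by decide +kernel
theorem R7_o7 : ∀ r ∈ R7, ∀ s ∈ R7, r ≠ s → o7 (mU (vU r) s) := by decide +kernel
theorem gU_spec : ∀ u < 8, u ≠ 0 → gU u ∈ R7 ∧ aU (gU u) 1 = u := by decide +kernel
theorem aU_ne : ∀ b ∈ LG, ∀ u < 8, u ≠ 0 → aU b u ≠ 0 := by decide +kernel
theorem two_U' : ∀ u < 8, ∀ k < 8, (u = 0 ∨ k = 0 ∨ u = k) ∨
    (LG.any fun b => aU b 1 == u && aU b 2 == k && aU b 3 == u ^^^ k) = true := by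
  decide +kernel
theorem two_U (u : ℕ) (hu : u < 8) (k : ℕ) (hk : k < 8) (h1 : u ≠ 0) (h2 : k ≠ 0) (h3 : u ≠ k) :
    ∃ b ∈ LG, aU b 1 = u ∧ aU b 2 = k ∧ aU b 3 = u ^^^ k := by
  rcases two_U' u hu k hk with (h | h | h) | h
  · exact absurd h h1
  · exact absurd h h2
  · exact absurd h h3
  · simpa [and_assoc] using h
theorem aU_col : ∀ b ∈ LG, aU b 1 = col b 0 ∧ aU b 2 = col b 1 ∧ aU b 4 = col b 2 := by decide +kernel

variable (P : Act M)

/-- The fixed points of the stabiliser of `1`. -/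
def XS : Subgroup M where
  carrier := {w | ∀ a ∈ LS, aN a 1 = 1 → P.α a w = w}
  one_mem' := fun _ _ _ => map_one _
  mul_mem' := fun h h' a ha e => by rw [map_mul, h a ha e, h' a ha e]
  inv_mem' := fun h a ha e => by rw [map_inv, h a ha e]

/-- The vector with code `n` in the module generated by `w`. -/
def v (n : ℕ) : M →* M := if n = 0 then 1 else P.α (gN n)

variable {P} {w : M} {a b n k u : ℕ}

theorem X_β (hw : w ∈ XS P) (hb : b ∈ LG) : P.β b w ∈ XS P := fun a ha e => by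
  rw [P.comm a ha b hb, hw a ha e]

theorem v_zero (w : M) : v P 0 w = 1 := by simp [v]

theorem v_one (w : M) : v P 1 w = w := P.α_one w

theorem v_β (hn : n < 16) (hb : b ∈ LG) (w : M) : P.β b (v P n w) = v P n (P.β b w) := by
  by_cases h : n = 0
  · rw [h, v_zero, v_zero, map_one]
  · simp only [v, if_neg h]
    exact (P.comm _ (gN_spec n hn h).1 b hb w).symm

theorem orbN (hw : w ∈ XS P) {a' : ℕ} (ha : a ∈ LS) (ha' : a' ∈ LS) (e : aN a 1 = aN a' 1) :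
    P.α a w = P.α a' w := by
  obtain ⟨h1, h2, h3, -⟩ := vN_spec a' ha'
  have := hw _ (mN_mem h1 ha) (by
    rw [aN_mN h1 ha (by decide), e, ← aN_mN h1 ha' (by decide), h3, aN_iN 1 (by decide)])
  rw [← this, ← P.α_mul _ ha' _ (mN_mem h1 ha), ← mN_assoc ha' h1 ha, h2, (vN_spec a ha).2.2.2.2.1,
    this]

theorem v_act (hw : w ∈ XS P) (ha : a ∈ LS) (hn : n < 16) : P.α a (v P n w) = v P (aN a n) w := by
  by_cases h : n = 0
  · rw [h, aN_zero a ha, v_zero, map_one]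
  · have h' := aN_ne a ha n hn h
    obtain ⟨g1, g2⟩ := gN_spec n hn h
    obtain ⟨g3, g4⟩ := gN_spec _ (aN_lt a n) h'
    simp only [v, if_neg h, if_neg h']
    rw [← P.α_mul _ ha _ g1]
    exact orbN hw (mN_mem ha g1) g3 (by rw [aN_mN ha g1 (by decide), g2, g4])

variable (hx : ∀ a ∈ LS, o3 a → ∀ m, P.α a m = m → m = 1)
include hx

theorem v_xor (hw : w ∈ XS P) (hn : n < 16) (hk : k < 16) :
    v P (n ^^^ k) w = v P n w * v P k w := by
  by_cases h1 : n = 0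
  · rw [h1, Nat.zero_xor, v_zero, one_mul]
  by_cases h2 : k = 0
  · rw [h2, Nat.xor_zero, v_zero, mul_one]
  by_cases h3 : n = k
  · rw [h3, Nat.xor_self, v_zero, P.sq]
  obtain ⟨x, hxx, e1, e2, e3⟩ := L3_cyc n hn k hk h1 h2 h3
  obtain ⟨m1, m2⟩ := L3_spec x hxx
  refine (eq_of_mul P.sq (hx x m1 m2 _ ?_)).symm
  rw [map_mul, map_mul, v_act hw m1 hn, v_act hw m1 hk, v_act hw m1 (xor16 hn hk), e1, e2, e3,
    mul_comm _ (v P n w), mul_assoc]

/-- The operator that extracts bit `j`. -/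
theorem extract {j : ℕ} (hj : j < 4) : ∃ E : M →* M, ∀ w ∈ XS P, ∀ n < 16,
    E (v P n w) = v P (bit n j) w := by
  obtain ⟨g1, g2⟩ := gE_spec j hj
  refine ⟨((MonoidHom.id M * P.α c1).comp (MonoidHom.id M * P.α cp)).comp (P.α (gE j)),
    fun w hw n hn => ?_⟩
  have l1 := aN_lt (gE j) n
  have l2 := xor16 l1 (aN_lt cp (aN (gE j) n))
  simp only [MonoidHom.comp_apply, MonoidHom.mul_apply, MonoidHom.id_apply]
  rw [v_act hw g1 hn, v_act hw c_mem.2.2.1 l1, ← v_xor hx hw l1 (aN_lt _ _),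
    v_act hw c_mem.2.2.2 l2, ← v_xor hx hw l2 (aN_lt _ _), g2 n hn]

theorem card_X [Finite M] (hM : Nat.card M = 4096) : Nat.card (XS P) ≤ 8 := by
  let f : XS P × XS P × XS P × XS P → M := fun w =>
    v P 1 w.1 * v P 2 w.2.1 * v P 4 w.2.2.1 * v P 8 w.2.2.2
  have key : ∀ j < 4, ∀ w w', f w = f w' →
      v P (bit 1 j) w.1 * v P (bit 2 j) w.2.1 * v P (bit 4 j) w.2.2.1 * v P (bit 8 j) w.2.2.2 =
      v P (bit 1 j) w'.1 * v P (bit 2 j) w'.2.1 * v P (bit 4 j) w'.2.2.1 * v P (bit 8 j) w'.2.2.2 := by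
    intro j hj w w' h
    obtain ⟨E, hE⟩ := extract hx hj
    have := congrArg E h
    simp only [f, map_mul] at this
    rwa [hE _ w.1.2 1 (by decide), hE _ w.2.1.2 2 (by decide), hE _ w.2.2.1.2 4 (by decide),
      hE _ w.2.2.2.2 8 (by decide), hE _ w'.1.2 1 (by decide), hE _ w'.2.1.2 2 (by decide),
      hE _ w'.2.2.1.2 4 (by decide), hE _ w'.2.2.2.2 8 (by decide)] at this
  have b : (bit 1 0 = 1 ∧ bit 2 0 = 0 ∧ bit 4 0 = 0 ∧ bit 8 0 = 0) ∧
      (bit 1 1 = 0 ∧ bit 2 1 = 1 ∧ bit 4 1 = 0 ∧ bit 8 1 = 0) ∧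
      (bit 1 2 = 0 ∧ bit 2 2 = 0 ∧ bit 4 2 = 1 ∧ bit 8 2 = 0) ∧
      bit 1 3 = 0 ∧ bit 2 3 = 0 ∧ bit 4 3 = 0 ∧ bit 8 3 = 1 := by decide +kernel
  have inj : Function.Injective f := fun w w' h => by
    have k0 := key 0 (by decide) w w' h
    have k1 := key 1 (by decide) w w' h
    have k2 := key 2 (by decide) w w' h
    have k3 := key 3 (by decide) w w' h
    simp only [b, v_zero, v_one, one_mul, mul_one] at k0 k1 k2 k3
    exact Prod.ext (Subtype.ext k0) (Prod.ext (Subtype.ext k1) (Prod.ext (Subtype.ext k2)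
      (Subtype.ext k3)))
  have := Nat.card_le_card_of_injective f inj
  rw [hM, Nat.card_prod, Nat.card_prod, Nat.card_prod] at this
  by_contra h
  have h9 : 9 ≤ Nat.card (XS P) := by omega
  have := Nat.mul_le_mul h9 (Nat.mul_le_mul h9 (Nat.mul_le_mul h9 h9))
  omega

omit hx in
theorem stab {r s : ℕ} (hr : r ∈ LG) (hs : s ∈ LG) (e : P.β r w = P.β s w) :
    P.β (mU (vU r) s) w = w := by
  rw [P.β_mul _ (vU_mem hr) _ hs, ← e, ← P.β_mul _ (vU_mem hr) _ hr, (vU_spec r hr).2.2.1, P.β_one]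

omit hx in
theorem R7_inj (w1 : w ≠ 1) {r s : ℕ} (hr : r ∈ R7) (hs : s ∈ R7) (e : P.β r w = P.β s w) : r = s := by
  by_contra h
  exact w1 (P.y7 _ (mU_mem (vU_mem (R7_mem r hr)) (R7_mem s hs)) (R7_o7 r hr s hs h) _
    (stab (R7_mem r hr) (R7_mem s hs) e))

omit hx in
theorem β_ne (w1 : w ≠ 1) (hb : b ∈ LG) : P.β b w ≠ 1 := fun e => w1 (by
  rw [← P.β_one w, ← (vU_spec b hb).2.2.1, P.β_mul _ (vU_mem hb) _ hb, e, map_one])

theorem X_cases [Finite M] (hM : Nat.card M = 4096) (hw : w ∈ XS P) (w1 : w ≠ 1) {x : M}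
    (h : x ∈ XS P) : x = 1 ∨ ∃ r ∈ R7, x = P.β r w := by
  classical
  have h1 : (insert 1 ((fun r => P.β r w) '' (R7.toFinset : Set ℕ)) : Set M) = (XS P : Set M) := by
    refine Set.eq_of_subset_of_ncard_le ?_ ?_
    · rintro _ (rfl | ⟨r, hr, rfl⟩)
      · exact one_mem _
      · exact X_β hw (R7_mem r (List.mem_toFinset.1 hr))
    · rw [Set.ncard_insert_of_notMem, Set.InjOn.ncard_image, Set.ncard_coe_finset]
      · exact card_X hx hM
      · exact fun r hr s hs e => R7_inj w1 (List.mem_toFinset.1 hr) (List.mem_toFinset.1 hs) e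
      · rintro ⟨r, hr, e⟩
        exact β_ne w1 (R7_mem r (List.mem_toFinset.1 hr)) e
  rcases h1.ge h with rfl | ⟨r, hr, rfl⟩
  · exact Or.inl rfl
  · exact Or.inr ⟨r, List.mem_toFinset.1 hr, rfl⟩

theorem co_of [Finite M] (hM : Nat.card M = 4096) (hw : w ∈ XS P) (w1 : w ≠ 1)
    (hs : ∀ b ∈ LG, aU b 1 = 1 → P.β b w = w) : ∃ Φ, P.Co Φ := by
  have orb : ∀ b ∈ LG, ∀ b' ∈ LG, aU b 1 = aU b' 1 → P.β b w = P.β b' w := by
    intro b hb b' hb' e
    obtain ⟨h1, h2, h3, -⟩ := vU_spec b' hb'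
    have := hs _ (mU_mem h1 hb) (by
      rw [((mU_spec h1 hb).2.2 1 (by decide)).1, e, ← ((mU_spec h1 hb').2.2 1 (by decide)).1, h3,
        aU_iU 1 (by decide)])
    rw [← this, ← P.β_mul _ hb' _ (mU_mem h1 hb), ← mU_assoc hb' h1 hb, h2, (vU_spec b hb).2.2.2.2.1,
      this]
  obtain ⟨W, W0, W1⟩ : ∃ W : ℕ → M, W 0 = 1 ∧ ∀ u, u ≠ 0 → W u = P.β (gU u) w :=
    ⟨fun u => if u = 0 then 1 else P.β (gU u) w, if_pos rfl, fun u h => if_neg h⟩
  have WX : ∀ u < 8, W u ∈ XS P := fun u hu => by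
    by_cases h : u = 0
    · rw [h, W0]; exact one_mem _
    · rw [W1 u h]; exact X_β hw (R7_mem _ (gU_spec u hu h).1)
  have Wact : ∀ b ∈ LG, ∀ u < 8, P.β b (W u) = W (aU b u) := fun b hb u hu => by
    by_cases h : u = 0
    · have : aU b 0 = 0 := by simpa using aU_xor b hb 0 (by decide) 0 (by decide)
      rw [h, this, W0, map_one]
    · have h' := aU_ne b hb u hu h
      obtain ⟨g1, g2⟩ := gU_spec u hu h
      obtain ⟨g3, g4⟩ := gU_spec _ (aU_lt b hb u hu) h'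
      rw [W1 _ h, W1 _ h', ← P.β_mul _ hb _ (R7_mem _ g1)]
      exact orb _ (mU_mem hb (R7_mem _ g1)) _ (R7_mem _ g3) (by
        rw [((mU_spec hb (R7_mem _ g1)).2.2 1 (by decide)).1, g2, g4])
  have Wne : ∀ u < 8, W u = 1 → u = 0 := fun u hu e => by
    by_contra h
    exact β_ne w1 (R7_mem _ (gU_spec u hu h).1) (W1 u h ▸ e)
  have Winj : ∀ u < 8, ∀ k < 8, u ≠ 0 → W u = W k → u = k := fun u hu k hk h e => by
    have h' : k ≠ 0 := fun h' => h (Wne u hu (by rw [e, h', W0]))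
    rw [W1 u h, W1 k h'] at e
    rw [← (gU_spec u hu h).2, R7_inj w1 (gU_spec u hu h).1 (gU_spec k hk h').1 e, (gU_spec k hk h').2]
  have W3 : W 1 * W 2 = W 3 := by
    rcases X_cases hx hM hw w1 (mul_mem (WX 1 (by decide)) (WX 2 (by decide))) with h | ⟨r, hr, h⟩
    · exact absurd (Winj 1 (by decide) 2 (by decide) (by decide) (eq_of_mul P.sq h)) (by decide)
    · have hr' := R7_mem r hr
      have l := aU_lt r hr' 1 (by decide)
      have n := aU_ne r hr' 1 (by decide) (by decide)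
      have e : W 1 * W 2 = W (aU r 1) := by
        rw [h, ← Wact r hr' 1 (by decide), W1 1 (by decide)]
        exact congrArg _ (P.β_one w).symm
      have f : ∀ b ∈ LG, aU b 1 = 1 → aU b 2 = 2 → aU r 1 = aU b (aU r 1) := fun b hb e1 e2 =>
        Winj _ l _ (aU_lt b hb _ l) n (by
          rw [← Wact b hb _ l, ← e, map_mul, Wact b hb 1 (by decide), Wact b hb 2 (by decide), e1, e2])
      have g : ∀ u < 8, u ≠ 0 → u = aU 337 u → u = 1 ∨ u = 2 ∨ u = 3 := by decide +kernel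
      rcases g _ l n (f 337 (by decide +kernel) (by decide +kernel) (by decide +kernel)) with t | t | t
      · rw [t] at e
        exact absurd (Wne 2 (by decide) (mul_eq_left.1 e)) (by decide)
      · rw [t] at e
        exact absurd (Wne 1 (by decide) (mul_eq_right.1 e)) (by decide)
      · rw [e, t]
  have Wxor : ∀ u < 8, ∀ k < 8, W (u ^^^ k) = W u * W k := fun u hu k hk => by
    by_cases h1 : u = 0
    · rw [h1, Nat.zero_xor, W0, one_mul]
    by_cases h2 : k = 0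
    · rw [h2, Nat.xor_zero, W0, mul_one]
    by_cases h3 : u = k
    · rw [h3, Nat.xor_self, W0, P.sq]
    obtain ⟨b, hb, e1, e2, e3⟩ := two_U u hu k hk h1 h2 h3
    rw [← e3, ← Wact b hb 3 (by decide), ← W3, map_mul, Wact b hb 1 (by decide),
      Wact b hb 2 (by decide), e1, e2]
  have x1 := WX 1 (by decide)
  have x2 := WX 2 (by decide)
  have x4 := WX 4 (by decide)
  have ten : ∀ n, ∀ i < 2, ∀ j < 2, ∀ l < 2,
      v P (i * n) (W 1) * v P (j * n) (W 2) * v P (l * n) (W 4) = v P n (W (i + 2 * j + 4 * l)) := by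
    intro n i hi j hj l hl
    have e3 : W 3 = W 1 * W 2 := Wxor 1 (by decide) 2 (by decide)
    have e5 : W 5 = W 1 * W 4 := Wxor 1 (by decide) 4 (by decide)
    have e6 : W 6 = W 2 * W 4 := Wxor 2 (by decide) 4 (by decide)
    have e7 : W 7 = W 3 * W 4 := Wxor 3 (by decide) 4 (by decide)
    interval_cases i <;> interval_cases j <;> interval_cases l <;>
      simp [v_zero, W0, e3, e5, e6, e7]
  obtain ⟨Φ, hΦ⟩ : ∃ Φ : ℕ → M, ∀ m,
      Φ m = v P (nb m 0) (W 1) * v P (nb m 1) (W 2) * v P (nb m 2) (W 4) := ⟨_, fun _ => rfl⟩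
  have hxor : ∀ m k, Φ (m ^^^ k) = Φ m * Φ k := fun m k => by
    simp only [hΦ, nb_xor]
    rw [v_xor hx x1 (nb_lt _ _) (nb_lt _ _), v_xor hx x2 (nb_lt _ _) (nb_lt _ _),
      v_xor hx x4 (nb_lt _ _) (nb_lt _ _)]
    ac_rfl
  have hinj : ∀ m < 4096, Φ m = 1 → m = 0 := fun m hm e => by
    have key : ∀ j < 4, bit (nb m 0) j = 0 ∧ bit (nb m 1) j = 0 ∧ bit (nb m 2) j = 0 := by
      intro j hj
      obtain ⟨E, hE⟩ := extract hx hj
      have h := congrArg E e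
      rw [hΦ, map_mul, map_mul, hE _ x1 _ (nb_lt _ _), hE _ x2 _ (nb_lt _ _), hE _ x4 _ (nb_lt _ _),
        map_one] at h
      have h' := ten 1 _ (bit_lt (nb m 0) j) _ (bit_lt (nb m 1) j) _ (bit_lt (nb m 2) j)
      rw [mul_one, mul_one, mul_one, h, v_one] at h'
      have := Wne _ (comb_lt (bit_lt _ _) (bit_lt _ _) (bit_lt _ _)) h'.symm
      omega
    have z : ∀ n < 16, bit n 0 = 0 → bit n 1 = 0 → bit n 2 = 0 → bit n 3 = 0 → n = 0 := by
      decide +kernel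
    have k0 := key 0 (by decide)
    have k1 := key 1 (by decide)
    have k2 := key 2 (by decide)
    have k3 := key 3 (by decide)
    rw [nb_eq m hm, z _ (nb_lt m 0) k0.1 k1.1 k2.1 k3.1, z _ (nb_lt m 1) k0.2.1 k1.2.1 k2.2.1 k3.2.1,
      z _ (nb_lt m 2) k0.2.2 k1.2.2 k2.2.2 k3.2.2]
    rfl
  have pure : ∀ n < 16, ∀ u < 8, Φ (n * sp u) = v P n (W u) := fun n hn u hu => by
    have e : ∀ u < 8, bit u 0 + 2 * bit u 1 + 4 * bit u 2 = u := by decide +kernel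
    rw [hΦ, nb_sp u hu n hn 0 (by decide), nb_sp u hu n hn 1 (by decide), nb_sp u hu n hn 2 (by decide),
      ten n _ (bit_lt _ _) _ (bit_lt _ _) _ (bit_lt _ _), e u hu]
  refine ⟨Φ, fun m _ k _ => hxor m k, hinj, fun g => ?_, fun a ha b hb m _ => ?_⟩
  · have hi : Function.Injective fun m : Fin 4096 => Φ m := fun m k e =>
      Fin.ext (eq_of_xor (hinj _ (xor4096 m.2 k.2) (by
        rw [hxor, show Φ m = Φ k from e, P.sq])))
    obtain ⟨m, hm⟩ := (hi.bijective_of_nat_card_le (by rw [hM, Nat.card_fin])).2 g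
    exact ⟨m, m.2, hm⟩
  · obtain ⟨e0, e1, e2⟩ := aU_col b hb
    rw [aM, hxor, hxor, pure _ (aN_lt _ _) _ (col_lt _ _), pure _ (aN_lt _ _) _ (col_lt _ _),
      pure _ (aN_lt _ _) _ (col_lt _ _), hΦ, map_mul (P.β b), map_mul (P.β b), v_β (nb_lt _ _) hb, v_β (nb_lt _ _) hb,
      v_β (nb_lt _ _) hb, Wact b hb 1 (by decide), Wact b hb 2 (by decide), Wact b hb 4 (by decide),
      e0, e1, e2, map_mul (P.α a), map_mul (P.α a), v_act (WX _ (col_lt _ _)) ha (nb_lt _ _),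
      v_act (WX _ (col_lt _ _)) ha (nb_lt _ _), v_act (WX _ (col_lt _ _)) ha (nb_lt _ _)]

omit hx in
theorem exists_w [Nontrivial M] : ∃ w, w ≠ 1 ∧ w ∈ XS P ∧ ∀ d ∈ B8, P.β d w = w := by
  obtain ⟨mz, me, mp, -⟩ := c_mem
  obtain ⟨x, x1, -, h1, h2, h3⟩ := d8 P.sq (S := fun _ => True) (fun _ _ _ _ => trivial)
    (P.α cz) (P.α ce) (P.α cp) (fun _ _ => trivial) (fun _ _ => trivial) (fun _ _ => trivial)
    (fun x => by rw [← P.α_mul _ mz _ mz, show mN cz cz = iN by decide +kernel, P.α_one])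
    (fun x => by rw [← P.α_mul _ me _ me, show mN ce ce = iN by decide +kernel, P.α_one])
    (fun x => by rw [← P.α_mul _ mp _ mp, show mN cp cp = iN by decide +kernel, P.α_one])
    (fun x => by
      rw [← P.α_mul _ mz _ me, ← P.α_mul _ me _ mz, show mN cz ce = mN ce cz by decide +kernel])
    (fun x => by
      rw [← P.α_mul _ mz _ mp, ← P.α_mul _ mp _ mz, show mN cz cp = mN cp cz by decide +kernel])
    (fun x => by
      rw [← P.α_mul _ me _ mp, ← P.α_mul _ mz _ me, ← P.α_mul _ mp _ (mN_mem mz me),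
        show mN ce cp = mN cp (mN cz ce) by decide +kernel])
    (by obtain ⟨x, hx⟩ := exists_ne (1 : M); exact ⟨x, hx, trivial⟩)
  have hX : x ∈ XS P := fun a ha e => by
    rcases D8_cases a ha e with rfl | rfl | rfl | rfl | rfl | rfl | rfl | rfl
    · exact P.α_one x
    · exact h1
    · exact h2
    · exact h3
    · rw [P.α_mul _ mz _ me, h2, h1]
    · rw [P.α_mul _ mz _ mp, h3, h1]
    · rw [P.α_mul _ me _ mp, h3, h2]
    · rw [P.α_mul _ mz _ (mN_mem me mp), P.α_mul _ me _ mp, h3, h2, h1]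
  have m1 : 337 ∈ LG := by decide +kernel
  have m2 : 401 ∈ LG := by decide +kernel
  have m3 : 281 ∈ LG := by decide +kernel
  obtain ⟨y, y1, hy, k1, k2, k3⟩ := d8 P.sq (S := fun w => w ∈ XS P) (fun _ _ a b => mul_mem a b)
    (P.β 337) (P.β 401) (P.β 281) (fun _ h => X_β h m1) (fun _ h => X_β h m2) (fun _ h => X_β h m3)
    (fun x => by rw [← P.β_mul _ m1 _ m1, show mU 337 337 = iU by decide +kernel, P.β_one])
    (fun x => by rw [← P.β_mul _ m2 _ m2, show mU 401 401 = iU by decide +kernel, P.β_one])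
    (fun x => by rw [← P.β_mul _ m3 _ m3, show mU 281 281 = iU by decide +kernel, P.β_one])
    (fun x => by
      rw [← P.β_mul _ m1 _ m2, ← P.β_mul _ m2 _ m1, show mU 337 401 = mU 401 337 by decide +kernel])
    (fun x => by
      rw [← P.β_mul _ m1 _ m3, ← P.β_mul _ m3 _ m1, show mU 337 281 = mU 281 337 by decide +kernel])
    (fun x => by
      rw [← P.β_mul _ m2 _ m3, ← P.β_mul _ m1 _ m2, ← P.β_mul _ m3 _ (mU_mem m1 m2),
        show mU 401 281 = mU 281 (mU 337 401) by decide +kernel])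
    ⟨x, x1, hX⟩
  have c : ∀ d ∈ B8, d = iU ∨ d = 337 ∨ d = 401 ∨ d = 281 ∨ d = mU 337 401 ∨ d = mU 337 281 ∨
      d = mU 401 281 ∨ d = mU 337 (mU 401 281) := by decide +kernel
  refine ⟨y, y1, hy, fun d hd => ?_⟩
  rcases c d hd with h | h | h | h | h | h | h | h <;> rw [h]
  · exact P.β_one y
  · exact k1
  · exact k2
  · exact k3
  · rw [P.β_mul _ m1 _ m2, k2, k1]
  · rw [P.β_mul _ m1 _ m3, k3, k1]
  · rw [P.β_mul _ m2 _ m3, k3, k2]
  · rw [P.β_mul _ m1 _ (mU_mem m2 m3), P.β_mul _ m2 _ m3, k3, k2, k1]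

end ModU

variable {M : Type*} [CommGroup M] [Finite M]

open ModU in
theorem Act.exists_co (P : Act M) (hx : ∀ a ∈ LS, o3 a → ∀ m, P.α a m = m → m = 1) (hM : Nat.card M = 4096) :
    (∃ Φ, P.Co Φ) ∨ ∃ Φ, P.tw.Co Φ := by
  haveI : Nontrivial M := Finite.one_lt_card_iff_nontrivial.1 (by omega)
  obtain ⟨w, w1, hw, hB⟩ := exists_w (P := P)
  have mB : ∀ d ∈ B8, d ∈ LG := by decide +kernel
  have dbl : ∀ c ∈ LG, P.β c w = w → ∀ d ∈ B8, ∀ d' ∈ B8, P.β (mU d (mU c d')) w = w :=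
    fun c hc e d hd d' hd' => by
      rw [P.β_mul _ (mB d hd) _ (mU_mem hc (mB d' hd')), P.β_mul _ hc _ (mB d' hd'), hB d' hd', e,
        hB d hd]
  have m85 : 85 ∈ LG := by decide +kernel
  obtain ⟨r, hr, e⟩ := (X_cases hx hM hw w1 (X_β hw m85)).resolve_left (β_ne w1 m85)
  have mc := mU_mem (vU_mem (R7_mem r hr)) m85
  have k : ∀ r ∈ R7, ∃ d ∈ B8, ∃ d' ∈ B8, mU d (mU (mU (vU r) 85) d') = 161 ∨
      mU d (mU (mU (vU r) 85) d') = 266 ∨ o7 (mU d (mU (mU (vU r) 85) d')) := by decide +kernel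
  obtain ⟨d, hd, d', hd', h⟩ := k r hr
  have e' := dbl _ mc (stab (R7_mem r hr) m85 e.symm) d hd d' hd'
  rcases h with h | h | h
  · rw [h] at e'
    have c : ∀ b ∈ LG, aU b 1 = 1 → b ∈ B8 ∨ ∃ d ∈ B8, ∃ d' ∈ B8, b = mU d (mU 161 d') := by
      decide +kernel
    refine Or.inl (co_of hx hM hw w1 fun b hb h1 => ?_)
    rcases c b hb h1 with h2 | ⟨d, hd, d', hd', h2⟩
    · exact hB b h2
    · rw [h2]
      exact dbl _ (by decide +kernel) e' d hd d' hd'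
  · rw [h] at e'
    have m84 : 84 ∈ LG := by decide +kernel
    have c : ∀ b ∈ LG, aU b 1 = 1 → mU (vU 84) (mU (tU b) 84) ∈ B8 ∨
        ∃ d ∈ B8, ∃ d' ∈ B8, mU (vU 84) (mU (tU b) 84) = mU d (mU 266 d') := by decide +kernel
    refine Or.inr (co_of (P := P.tw) (w := P.β 84 w) hx hM (X_β hw m84) (β_ne w1 m84) fun b hb h1 => ?_)
    have m := mU_mem (tU_spec b hb).1 m84
    have f : P.β (mU (vU 84) (mU (tU b) 84)) w = w := by
      rcases c b hb h1 with h2 | ⟨d, hd, d', hd', h2⟩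
      · exact hB _ h2
      · rw [h2]
        exact dbl _ (by decide +kernel) e' d hd d' hd'
    show P.β (tU b) (P.β 84 w) = P.β 84 w
    conv_rhs => rw [← f]
    rw [← P.β_mul _ m84 _ (mU_mem (vU_mem m84) m), ← mU_assoc m84 (vU_mem m84) m,
      (vU_spec _ m84).2.1, (vU_spec _ m).2.2.2.2.1, P.β_mul _ (tU_spec b hb).1 _ m84]
  · exact absurd (P.y7 _ (mU_mem (mB d hd) (mU_mem mc (mB d' hd'))) h _ e') w1

end Cfsg.Agent.Pn
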