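import Mathlib
import Cfsg.Agent.Pn.Cod

/-! The centre, the commutator map and the squaring map. -/

set_option autoImplicit false
set_option linter.unusedSectionVars false

namespace Cfsg.Agent.Pn

open Cfsg.Agent.Spor Cfsg.Agent.Inv.Fz Subgroup
open Cfsg.Agent.R24 (Wc Md NoOdd)

variable {M Z : Type*} [CommGroup M] [CommGroup Z] [Finite M] [Finite Z]

namespace MZ

/-- The Frobenius element. -/
def fr : ℕ := nat_lit 0xab98efdc67542310

/-- Additivity on codes below `N`. -/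
def Ad (N : ℕ) (f : ℕ → Z) : Prop := ∀ a < N, ∀ b < N, f (a ^^^ b) = f a * f b

omit [Finite Z] in
theorem Ad.zero {N : ℕ} {f : ℕ → Z} (h : Ad N f) (hN : 0 < N) : f 0 = 1 := by
  simpa using h 0 hN 0 hN

omit [Finite Z] in
theorem ext8 {f g : ℕ → Z} (hf : Ad 8 f) (hg : Ad 8 g) (h1 : f 1 = g 1) (h2 : f 2 = g 2) (h4 : f 4 = g 4) :
    ∀ a < 8, f a = g a := by
  have k : ∀ a < 8, ∀ b < 8, f a = g a → f b = g b → f (a ^^^ b) = g (a ^^^ b) := fun a ha b hb e e' => by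
    rw [hf a ha b hb, hg a ha b hb, e, e']
  have h3 : f 3 = g 3 := k 1 (by decide) 2 (by decide) h1 h2
  intro a ha
  interval_cases a
  exacts [k 1 (by decide) 1 (by decide) h1 h1, h1, h2, h3, h4, k 1 (by decide) 4 (by decide) h1 h4,
    k 2 (by decide) 4 (by decide) h2 h4, k 3 (by decide) 4 (by decide) h3 h4]

omit [Finite Z] in
theorem extM {f g : ℕ → Z} (hf : Ad 4096 f) (hg : Ad 4096 g)
    (h : ∀ n < 16, ∀ u < 8, f (n * sp u) = g (n * sp u)) : ∀ m < 4096, f m = g m := fun m hm => by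
  have l : ∀ i, ∀ u < 8, nb m i * sp u < 4096 := fun i u hu => sp_lt u hu _ (nb_lt _ _)
  have e : m = nb m 0 * sp 1 ^^^ nb m 1 * sp 2 ^^^ nb m 2 * sp 4 := nb_eq m hm
  have l0 := l 0 1 (by decide)
  have l1 := l 1 2 (by decide)
  have l2 := l 2 4 (by decide)
  rw [e, hf _ (xor4096 l0 l1) _ l2, hg _ (xor4096 l0 l1) _ l2, hf _ l0 _ l1, hg _ l0 _ l1,
    h _ (nb_lt _ _) _ (by decide), h _ (nb_lt _ _) _ (by decide), h _ (nb_lt _ _) _ (by decide)]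

theorem surj8 (hZ : Nat.card Z = 8) {f : ℕ → Z} (h : ∀ a < 8, ∀ b < 8, f a = f b → a = b) (w : Z) :
    ∃ a < 8, f a = w := by
  have : Function.Bijective fun a : Fin 8 => f a := (Nat.bijective_iff_injective_and_card _).2
    ⟨fun a b e => Fin.ext (h a a.2 b b.2 e), by simp [hZ]⟩
  obtain ⟨a, e⟩ := this.2 w
  exact ⟨a, a.2, e⟩

omit [Finite Z] in
theorem Ad.inj {f : ℕ → Z} (hf : Ad 8 f) (sq : ∀ w : Z, w * w = 1) (h : ∀ a < 8, f a = 1 → a = 0) :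
    ∀ a < 8, ∀ b < 8, f a = f b → a = b := fun a ha b hb e =>
  eq_of_xor (h _ (xor8 ha hb) (by rw [hf a ha b hb, e, sq]))

omit [Finite Z] in
theorem β_eq_one (R : Act Z) {b : ℕ} (hb : b ∈ LG) {w : Z} (e : R.β b w = 1) : w = 1 := by
  rw [← R.β_one w, ← (vU_spec b hb).2.2.1, R.β_mul _ (vU_mem hb) _ hb, e, map_one]

/-- The seven powers of `94`, and a dummy. -/
def pw (i : ℕ) : ℕ := [273, 94, 426, 187, 229, 335, 500].getD i 273

theorem trans (R : Act Z) (hZ : Nat.card Z = 8) {w : Z} (hw : w ≠ 1) (v : Z) :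
    v = 1 ∨ ∃ b ∈ LG, R.β b w = v := by
  have m : ∀ i < 8, pw i ∈ LG := by decide +kernel
  have k : ∀ i < 7, ∀ j < 7, i = j ∨ o7 (mU (vU (pw i)) (pw j)) := by decide +kernel
  obtain ⟨a, ha, e⟩ := surj8 hZ (f := fun i => if i < 7 then R.β (pw i) w else 1) (fun i hi j hj e => by
    by_cases h1 : i < 7 <;> by_cases h2 : j < 7
    · rw [if_pos h1, if_pos h2] at e
      refine (k i h1 j h2).resolve_right fun o => hw (R.y7 _ (mU_mem (vU_mem (m i hi)) (m j hj)) o w ?_)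
      rw [R.β_mul _ (vU_mem (m i hi)) _ (m j hj), ← e, ← R.β_mul _ (vU_mem (m i hi)) _ (m i hi),
        (vU_spec _ (m i hi)).2.2.1, R.β_one]
    · rw [if_pos h1, if_neg h2] at e
      exact (hw (β_eq_one R (m i hi) e)).elim
    · rw [if_neg h1, if_pos h2] at e
      exact (hw (β_eq_one R (m j hj) e.symm)).elim
    · omega) v
  by_cases h1 : a < 7
  · rw [if_pos h1] at e
    exact Or.inr ⟨_, m a ha, e⟩
  · rw [if_neg h1] at e
    exact Or.inl e.symm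

theorem α_triv (R : Act Z) (hZ : Nat.card Z = 8) (hx : ∀ a ∈ LS, o3 a → ∀ w, R.α a w = w) :
    ∀ a ∈ LS, ∀ w, R.α a w = w := by
  have f1 : fr ∈ LS := by decide +kernel
  have f2 : mN fr fr = iN := by decide +kernel
  have k : ∀ a ∈ LS, ∃ x ∈ LS, o3 x ∧ (o3 (mN x a) ∨ o3 (mN x (mN a fr))) := by decide +kernel
  obtain ⟨w0, h0, e0⟩ : ∃ w0 : Z, w0 ≠ 1 ∧ R.α fr w0 = w0 := by
    have : Nontrivial Z := Finite.one_lt_card_iff_nontrivial.1 (by omega)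
    obtain ⟨w, hw⟩ := exists_ne (1 : Z)
    by_cases e : R.α fr w = w
    · exact ⟨w, hw, e⟩
    · refine ⟨w * R.α fr w, fun e' => e (mul_left_cancel (e'.trans (R.sq w).symm)), ?_⟩
      rw [map_mul, ← R.α_mul _ f1 _ f1, f2, R.α_one, mul_comm]
  have hf : ∀ w, R.α fr w = w := fun w => by
    rcases trans R hZ h0 w with rfl | ⟨b, hb, rfl⟩
    · exact map_one _
    · rw [R.comm _ f1 _ hb, e0]
  intro a ha w
  obtain ⟨x, hx1, hx2, e | e⟩ := k a ha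
  · have := hx _ (mN_mem hx1 ha) e w
    rwa [R.α_mul _ hx1 _ ha, hx x hx1 hx2] at this
  · have := hx _ (mN_mem hx1 (mN_mem ha f1)) e w
    rwa [R.α_mul _ hx1 _ (mN_mem ha f1), hx x hx1 hx2, R.α_mul _ ha _ f1, hf] at this

variable {P : Act M} {R : Act Z} {c : M → M → Z} {q : M → Z} {Φ : ℕ → M}

/-- The form on `U`. -/
def Bf (c : M → M → Z) (Φ : ℕ → M) (u v : ℕ) : Z := c (Φ (1 * sp u)) (Φ (8 * sp v))

omit [Finite M] [Finite Z]

theorem c_symm (h : Cq P R c q) (m k : M) : c m k = c k m := by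
  have := h.self (m * k)
  rw [h.left, h.right, h.right, h.self, h.self, one_mul, mul_one] at this
  exact mul_left_cancel (a := c m k) ((R.sq _).trans this.symm)

theorem Φα (hΦ : P.Co Φ) {a n u : ℕ} (ha : a ∈ LS) (hn : n < 16) (hu : u < 8) :
    P.α a (Φ (n * sp u)) = Φ (aN a n * sp u) := by
  have := hΦ.act a ha _ iU_mem _ (sp_lt u hu n hn)
  rwa [P.β_one, aM_sp ha iU_mem hn hu, aU_iU u hu] at this

theorem Φβ (hΦ : P.Co Φ) {b n u : ℕ} (hb : b ∈ LG) (hn : n < 16) (hu : u < 8) :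
    P.β b (Φ (n * sp u)) = Φ (n * sp (aU b u)) := by
  have := hΦ.act _ iN_mem b hb _ (sp_lt u hu n hn)
  rwa [P.α_one, aM_sp iN_mem hb hn hu, aN_iN n hn] at this

theorem c_sp (h : Cq P R c q) (hΦ : P.Co Φ) (hα : ∀ a ∈ LS, ∀ w, R.α a w = w) {n n' u v : ℕ} (hn : n < 16)
    (hn' : n' < 16) (hu : u < 8) (hv : v < 8) : c (Φ (n * sp u)) (Φ (n' * sp v)) = Bf c Φ u v ^ bt n n' := by
  have k : ∀ n < 16, ∀ n' < 16, (bt n n' = 1 ∧ ∃ a ∈ LS, aN a 1 = n ∧ aN a 8 = n') ∨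
      (bt n n' = 0 ∧ ∃ a ∈ LS, aN a n = n ∧ ∃ k < 16, n' = k ^^^ aN a k) := by decide +kernel
  have i : ∀ a ∈ LS, ∀ n < 16, ∀ n' < 16,
      c (Φ (aN a n * sp u)) (Φ (aN a n' * sp v)) = c (Φ (n * sp u)) (Φ (n' * sp v)) := fun a ha n hn n' hn' => by
    rw [← Φα hΦ ha hn hu, ← Φα hΦ ha hn' hv, h.cα a ha, hα a ha]
  rcases k n hn n' hn' with ⟨e, a, ha, rfl, rfl⟩ | ⟨e, a, ha, e1, k, hk, rfl⟩
  · rw [e, pow_one, i a ha 1 (by decide) 8 (by decide), Bf]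
  · have := i a ha n hn k hk
    rw [e1] at this
    rw [e, pow_zero, sp_xor v hv k hk _ (aN_lt _ _), hΦ.xor _ (sp_lt v hv k hk) _ (sp_lt v hv _ (aN_lt _ _)),
      h.right, this, R.sq]

theorem sp_xor' : ∀ n < 16, ∀ u < 8, ∀ v < 8, n * sp (u ^^^ v) = n * sp u ^^^ n * sp v := by decide +kernel

theorem B_left (h : Cq P R c q) (hΦ : P.Co Φ) (v : ℕ) : Ad 8 fun u => Bf c Φ u v := fun a ha b hb => by
  simp only [Bf]
  rw [sp_xor' 1 (by decide) a ha b hb, hΦ.xor _ (sp_lt a ha 1 (by decide)) _ (sp_lt b hb 1 (by decide)), h.left]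

theorem B_right (h : Cq P R c q) (hΦ : P.Co Φ) (u : ℕ) : Ad 8 (Bf c Φ u) := fun a ha b hb => by
  simp only [Bf]
  rw [sp_xor' 8 (by decide) a ha b hb, hΦ.xor _ (sp_lt a ha 8 (by decide)) _ (sp_lt b hb 8 (by decide)), h.right]

theorem B_β (h : Cq P R c q) (hΦ : P.Co Φ) {b u v : ℕ} (hb : b ∈ LG) (hu : u < 8) (hv : v < 8) :
    R.β b (Bf c Φ u v) = Bf c Φ (aU b u) (aU b v) := by
  rw [Bf, ← h.cβ b hb, Φβ hΦ hb (by decide) hu, Φβ hΦ hb (by decide) hv, Bf]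

theorem B_symm (h : Cq P R c q) (hΦ : P.Co Φ) (hα : ∀ a ∈ LS, ∀ w, R.α a w = w) {u v : ℕ} (hu : u < 8)
    (hv : v < 8) : Bf c Φ u v = Bf c Φ v u := by
  rw [Bf, c_symm h, c_sp h hΦ hα (by decide) (by decide) hv hu, show bt 8 1 = 1 by decide +kernel, pow_one]

theorem B_self [Finite Z] (h : Cq P R c q) (hΦ : P.Co Φ) (hZ : Nat.card Z = 8) (hα : ∀ a ∈ LS, ∀ w, R.α a w = w)
    {u : ℕ} (hu : u < 8) : Bf c Φ u u = 1 := by
  have D : Ad 8 fun u => Bf c Φ u u := fun a ha b hb => by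
    have e1 := B_left h hΦ (a ^^^ b) a ha b hb
    simp only at e1 ⊢
    rw [e1, B_right h hΦ a a ha b hb, B_right h hΦ b a ha b hb, B_symm h hΦ hα hb ha, mul_assoc,
      ← mul_assoc (Bf c Φ a b), R.sq, one_mul]
  by_contra n
  have t : ∀ u < 8, ∀ v < 8, u = 0 ∨ v = 0 ∨ ∃ b ∈ LG, aU b v = u := by decide +kernel
  have i0 : ∀ v < 8, Bf c Φ v v = 1 → v = 0 := fun v hv e => by
    rcases t u hu v hv with rfl | h0 | ⟨b, hb, rfl⟩
    · exact (n (D.zero (by decide))).elim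
    · exact h0
    · exact (n (by rw [← B_β h hΦ hb hv hv, e, map_one])).elim
  have i := D.inj R.sq i0
  obtain ⟨w, hw, e⟩ := surj8 hZ i (Bf c Φ 1 2)
  have k : ∀ b ∈ LG, Bf c Φ (aU b w) (aU b w) = Bf c Φ (aU b 1) (aU b 2) := fun b hb => by
    rw [← B_β h hΦ hb hw hw, e, B_β h hΦ hb (by decide) (by decide)]
  have f : ∀ b ∈ LG, Bf c Φ (aU b 1) (aU b 2) = Bf c Φ 1 2 → aU b w = w := fun b hb e' =>
    i _ (aU_lt b hb w hw) w hw (((k b hb).trans e').trans e.symm)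
  have w03 : ∀ w < 8, aU 337 w = w → aU 266 w = w → w = 0 ∨ w = 3 := by decide +kernel
  rcases w03 w hw (f 337 (by decide) rfl) (f 266 (by decide) (B_symm h hΦ hα (by decide) (by decide))) with rfl | rfl
  · have e1 : Bf c Φ 0 0 = Bf c Φ 1 3 := k 281 (by decide)
    have e2 : Bf c Φ 1 3 = Bf c Φ 1 1 * Bf c Φ 1 2 := B_right h hΦ 1 1 (by decide) 2 (by decide)
    rw [← e1, ← e, right_eq_mul] at e2
    exact absurd (i0 1 (by decide) e2) (by decide)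
  · have e1 : Bf c Φ 5 5 = Bf c Φ 1 4 := k 161 (by decide)
    have e2 : Bf c Φ 7 7 = Bf c Φ 1 6 := k 177 (by decide)
    have e3 : Bf c Φ 1 6 = Bf c Φ 1 2 * Bf c Φ 1 4 := B_right h hΦ 1 2 (by decide) 4 (by decide)
    have e4 : Bf c Φ 6 6 = Bf c Φ 3 3 * Bf c Φ 5 5 := D 3 (by decide) 5 (by decide)
    exact absurd (i 7 (by decide) 6 (by decide) (by rw [e2, e3, e4, e1, ← e])) (by decide)

/-- The coordinates on `Z`. -/
def ze (c : M → M → Z) (Φ : ℕ → M) (a : ℕ) : Z :=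
  Bf c Φ 1 2 ^ bit a 0 * Bf c Φ 1 4 ^ bit a 1 * Bf c Φ 2 4 ^ bit a 2

theorem ze_ad (R : Act Z) : Ad 8 (ze c Φ) := fun a ha b hb => by
  have k : ∀ a < 8, ∀ b < 8, ∀ i < 3, bit (a ^^^ b) i = bit a i ^^^ bit b i := by decide +kernel
  have p : ∀ (x : Z) (i : ℕ), x ^ (bit a i ^^^ bit b i) = x ^ bit a i * x ^ bit b i := fun x i => by
    have h1 := bit_lt a i
    have h2 := bit_lt b i
    generalize bit a i = r at *
    generalize bit b i = s at *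
    interval_cases r <;> interval_cases s <;> simp [R.sq]
  simp only [ze, k a ha b hb 0 (by decide), k a ha b hb 1 (by decide), k a ha b hb 2 (by decide), p]
  ac_rfl

theorem B_eq [Finite Z] (h : Cq P R c q) (hΦ : P.Co Φ) (hZ : Nat.card Z = 8) (hα : ∀ a ∈ LS, ∀ w, R.α a w = w) :
    ∀ u < 8, ∀ v < 8, Bf c Φ u v = ze c Φ (wg u v) := by
  have l : ∀ u < 8, ∀ v < 8, wg u v < 8 := by decide +kernel
  have x1 : ∀ u < 8, ∀ a < 8, ∀ b < 8, wg u (a ^^^ b) = wg u a ^^^ wg u b := by decide +kernel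
  have x2 : ∀ u < 8, ∀ a < 8, ∀ b < 8, wg (a ^^^ b) u = wg a u ^^^ wg b u := by decide +kernel
  have a1 : ∀ u < 8, Ad 8 fun v => ze c Φ (wg u v) := fun u hu a ha b hb => by
    simp only [x1 u hu a ha b hb, ze_ad R _ (l u hu a ha) _ (l u hu b hb)]
  have a2 : ∀ u < 8, Ad 8 fun v => ze c Φ (wg v u) := fun u hu a ha b hb => by
    simp only [x2 u hu a ha b hb, ze_ad R _ (l a ha u hu) _ (l b hb u hu)]
  have z0 : ze c Φ 0 = 1 := (ze_ad R).zero (by decide)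
  have z1 : ze c Φ 1 = Bf c Φ 1 2 := by
    rw [ze, show bit 1 0 = 1 from rfl, show bit 1 1 = 0 from rfl, show bit 1 2 = 0 from rfl]; simp
  have z2 : ze c Φ 2 = Bf c Φ 1 4 := by
    rw [ze, show bit 2 0 = 0 from rfl, show bit 2 1 = 1 from rfl, show bit 2 2 = 0 from rfl]; simp
  have z4 : ze c Φ 4 = Bf c Φ 2 4 := by
    rw [ze, show bit 4 0 = 0 from rfl, show bit 4 1 = 0 from rfl, show bit 4 2 = 1 from rfl]; simp
  have s := fun u (hu : u < 8) => (B_self h hΦ hZ hα hu).trans z0.symm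
  have y := fun u (hu : u < 8) v (hv : v < 8) => B_symm h hΦ hα hu hv
  intro u hu v hv
  refine ext8 (B_left h hΦ v) (a2 v hv) ?_ ?_ ?_ u hu
  · exact ext8 (B_right h hΦ 1) (a1 1 (by decide)) (s 1 (by decide)) z1.symm z2.symm v hv
  · exact ext8 (B_right h hΦ 2) (a1 2 (by decide)) ((y 2 (by decide) 1 (by decide)).trans z1.symm)
      (s 2 (by decide)) z4.symm v hv
  · exact ext8 (B_right h hΦ 4) (a1 4 (by decide)) ((y 4 (by decide) 1 (by decide)).trans z2.symm)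
      ((y 4 (by decide) 2 (by decide)).trans z4.symm) (s 4 (by decide)) v hv

end MZ

open MZ

theorem Cq.exists_ζ {P : Act M} {R : Act Z} {c : M → M → Z} {q : M → Z} (h : Cq P R c q) {Φ : ℕ → M}
    (hΦ : P.Co Φ) (hZ : Nat.card Z = 8) (hx : ∀ a ∈ LS, o3 a → ∀ w, R.α a w = w) :
    ∃ ζ : ℕ → Z, (∀ a < 8, ∀ b < 8, ζ (a ^^^ b) = ζ a * ζ b) ∧ (∀ a < 8, ζ a = 1 → a = 0) ∧
      (∀ w, ∃ a < 8, ζ a = w) ∧ (∀ a ∈ LS, ∀ w, R.α a w = w) ∧ (∀ b ∈ LG, ∀ a < 8, R.β b (ζ a) = ζ (aZ b a)) ∧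
      (∀ m < 4096, ∀ k < 4096, c (Φ m) (Φ k) = ζ (cM m k)) ∧ ∀ m < 4096, q (Φ m) = ζ (qM m) := by
  have hα := α_triv R hZ hx
  have hB := B_eq h hΦ hZ hα
  have ad : Ad 8 (ze c Φ) := ze_ad R
  have z0 := ad.zero (by decide)
  have hβ : ∀ b ∈ LG, ∀ a < 8, R.β b (ze c Φ a) = ze c Φ (aZ b a) := fun b hb a ha => by
    obtain ⟨u, hu, v, hv, rfl⟩ := (by decide +kernel : ∀ a < 8, ∃ u < 8, ∃ v < 8, wg u v = a) a ha
    rw [← hB u hu v hv, B_β h hΦ hb hu hv, hB _ (aU_lt b hb u hu) _ (aU_lt b hb v hv), aZ_wg b hb u hu v hv]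
  have hc : ∀ m < 4096, ∀ k < 4096, c (Φ m) (Φ k) = ze c Φ (cM m k) := fun m hm k hk => by
    have e : ∀ n < 16, ∀ n' < 16, ∀ u < 8, ∀ v < 8, cM (n * sp u) (n' * sp v) = bt n n' * wg u v := by
      decide +kernel
    refine extM (f := fun m => c (Φ m) (Φ k)) (g := fun m => ze c Φ (cM m k)) (fun a ha b hb => ?_)
      (fun a _ b _ => ?_) (fun n hn u hu => ?_) m hm
    · simp only [hΦ.xor a ha b hb, h.left]
    · simp only [cM_xor, ad _ (cM_lt _ _) _ (cM_lt _ _)]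
    refine extM (f := fun k => c (Φ (n * sp u)) (Φ k)) (g := fun k => ze c Φ (cM (n * sp u) k))
      (fun a ha b hb => ?_) (fun a _ b _ => ?_) (fun n' hn' v hv => ?_) k hk
    · simp only [hΦ.xor a ha b hb, h.right]
    · simp only [cM_xor', ad _ (cM_lt _ _) _ (cM_lt _ _)]
    · simp only [c_sp h hΦ hα hn hn' hu hv, e n hn n' hn' u hu v hv, hB u hu v hv]
      have := bt_lt n n'
      generalize bt n n' = r at *
      interval_cases r <;> simp [z0]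
  have i0 : ∀ a < 8, ze c Φ a = 1 → a = 0 := fun a ha e => by_contra fun n => by
    obtain ⟨b, hb, rfl⟩ := trans_Z a ha n
    have e1 : ze c Φ 1 = 1 := β_eq_one R hb ((hβ b hb 1 (by decide)).trans e)
    obtain ⟨m, k, ne⟩ := h.ne
    obtain ⟨m, hm, rfl⟩ := hΦ.surj m
    obtain ⟨k, hk, rfl⟩ := hΦ.surj k
    rw [hc m hm k hk] at ne
    by_cases e0 : cM m k = 0
    · exact ne (e0 ▸ z0)
    · obtain ⟨b', hb', e'⟩ := trans_Z _ (cM_lt m k) e0
      exact ne (by rw [← e', ← hβ b' hb' 1 (by decide), e1, map_one])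
  have i := ad.inj R.sq i0
  have su := surj8 hZ i
  have q1 : ∀ n < 16, ∀ u < 8, u ≠ 0 → q (Φ (n * sp u)) = 1 := fun n hn u hu h0 => by
    have k : ∀ u < 8, ∀ a < 8, u = 0 ∨ a = 0 ∨ ∃ b ∈ LG, aU b u = u ∧ aZ b a ≠ a := by decide +kernel
    obtain ⟨a, ha, e⟩ := su (q (Φ (n * sp u)))
    rcases k u hu a ha with e0 | rfl | ⟨b, hb, e1, e2⟩
    · exact (h0 e0).elim
    · exact e.symm.trans z0
    · refine (e2 (i _ (aZ_lt b hb a ha) a ha ?_)).elim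
      rw [← hβ b hb a ha, e, ← h.qβ b hb, Φβ hΦ hb hn hu, e1]
  refine ⟨ze c Φ, ad, i0, su, hα, hβ, hc, fun m hm => ?_⟩
  have k : ∀ m < 4096, qM m = cM (nb m 0 * sp 1) (nb m 1 * sp 2) ^^^
      cM (nb m 0 * sp 1 ^^^ nb m 1 * sp 2) (nb m 2 * sp 4) := all4096 (by decide +kernel)
  have l : ∀ i, ∀ u < 8, nb m i * sp u < 4096 := fun i u hu => sp_lt u hu _ (nb_lt _ _)
  have e : m = nb m 0 * sp 1 ^^^ nb m 1 * sp 2 ^^^ nb m 2 * sp 4 := nb_eq m hm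
  have l0 := l 0 1 (by decide)
  have l1 := l 1 2 (by decide)
  have l2 := l 2 4 (by decide)
  rw [k m hm, ad _ (cM_lt _ _) _ (cM_lt _ _), ← hc _ l0 _ l1, ← hc _ (xor4096 l0 l1) _ l2]
  nth_rewrite 1 [e]
  rw [hΦ.xor _ (xor4096 l0 l1) _ l2, h.q_mul, hΦ.xor _ l0 _ l1, h.q_mul, q1 _ (nb_lt _ _) 1 (by decide) (by decide),
    q1 _ (nb_lt _ _) 2 (by decide) (by decide), q1 _ (nb_lt _ _) 4 (by decide) (by decide), one_mul, one_mul,
    mul_one]

end Cfsg.Agent.Pn
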