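import Mathlib
import Cfsg.Agent.Pn.Cod

/-! Codes for the quotient `S5 × L3(2)`. -/

set_option autoImplicit false

namespace Cfsg.Agent.Pn

open Subgroup

theorem exists_code {H : Type*} [Group H] {l : List ℕ} {mul : ℕ → ℕ → ℕ} {one : ℕ} (f : ℕ → H) (h1 : one ∈ l)
    (ho : mul one one = one) (hc : ∀ a ∈ l, ∀ b ∈ l, mul a b ∈ l) (hm : ∀ a ∈ l, ∀ b ∈ l, f (mul a b) = f a * f b)
    (hi : ∀ a ∈ l, ∀ b ∈ l, f a = f b → a = b) (hs : ∀ h, ∃ a ∈ l, f a = h) :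
    ∃ c : H → ℕ, (∀ h, c h ∈ l) ∧ (∀ h h', c (h * h') = mul (c h) (c h')) ∧ (∀ h, c h = one ↔ h = 1) ∧
      ∀ a ∈ l, ∃ h, c h = a := by
  choose c hc1 hc2 using hs
  have e : f one = 1 := left_eq_mul.1 (by rw [← hm _ h1 _ h1, ho])
  exact ⟨c, hc1, fun h h' => hi _ (hc1 _) _ (hc _ (hc1 _) _ (hc1 _)) (by rw [hm _ (hc1 _) _ (hc1 _), hc2, hc2, hc2]),
    fun h => ⟨fun k => by rw [← hc2 h, k, e], fun k => hi _ (hc1 _) _ h1 (by rw [hc2, k, e])⟩,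
    fun a ha => ⟨f a, hi _ (hc1 _) _ ha (hc2 _)⟩⟩

/-- The line through `n`. -/
def ln (n : ℕ) : Fin 5 := [0, 0, 0, 0, 1, 2, 3, 4, 1, 4, 2, 3, 1, 3, 4, 2].getD n 0
/-- The action on the five lines. -/
def pm (a : ℕ) (i : Fin 5) : Fin 5 := ln (aN a (![1, 4, 5, 6, 7] i))

theorem pm_mul {a b : ℕ} (ha : a ∈ LS) (hb : b ∈ LS) (i : Fin 5) : pm (mN a b) i = pm a (pm b i) := by
  have h1 : ∀ a ∈ LS, ∀ n < 16, n ≠ 0 → ln (aN a n) = pm a (ln n) := by decide +kernel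
  have h2 : ∀ a ∈ LS, ∀ i : Fin 5, aN a (![1, 4, 5, 6, 7] i) ≠ 0 := by decide +kernel
  have h3 : ∀ i : Fin 5, ![1, 4, 5, 6, 7] i < 16 := by decide
  rw [pm, aN_mN ha hb (h3 i), h1 a ha _ (aN_lt _ _) (h2 b hb i)]; rfl

set_option synthInstance.maxSize 4000 in
set_option synthInstance.maxHeartbeats 400000 in
theorem code_S5 : ∃ c : Equiv.Perm (Fin 5) → ℕ, (∀ h, c h ∈ LS) ∧ (∀ h h', c (h * h') = mN (c h) (c h')) ∧
    (∀ h, c h = iN ↔ h = 1) ∧ ∀ a ∈ LS, ∃ h, c h = a := by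
  have h1 : ∀ i, pm iN i = i := by decide +kernel
  let f : ℕ → Equiv.Perm (Fin 5) := fun a => if h : a ∈ LS then ⟨pm a, pm (vN a),
    fun i => by rw [← pm_mul (vN_mem h) h, (vN_spec a h).2.2.1, h1],
    fun i => by rw [← pm_mul h (vN_mem h), (vN_spec a h).2.1, h1]⟩ else 1
  have hf : ∀ a ∈ LS, ∀ i, f a i = pm a i := fun a ha i => by simp only [f, dif_pos ha]; rfl
  have h2 : ∀ a ∈ LS, ∀ b ∈ LS, pm a 0 = pm b 0 → pm a 1 = pm b 1 → pm a 2 = pm b 2 → pm a 3 = pm b 3 → a = b := by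
    decide +kernel
  have h3 : ∀ p q : Fin 5, p ≠ q → ∀ r, p ≠ r → q ≠ r → ∀ s, p ≠ s → q ≠ s → r ≠ s → ∀ t, p ≠ t → q ≠ t → r ≠ t →
      s ≠ t → ∃ a ∈ LS, pm a 0 = p ∧ pm a 1 = q ∧ pm a 2 = r ∧ pm a 3 = s ∧ pm a 4 = t := by decide +kernel
  refine exists_code f iN_mem (vN_spec _ iN_mem).2.2.2.1 (fun a ha b hb => mN_mem ha hb)
    (fun a ha b hb => Equiv.ext fun i => by
      rw [Equiv.Perm.mul_apply, hf _ (mN_mem ha hb), hf _ ha, hf _ hb, pm_mul ha hb])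
    (fun a ha b hb e => h2 a ha b hb ?_ ?_ ?_ ?_) fun σ => ?_
  iterate 4 rw [← hf a ha, ← hf b hb, e]
  have k : ∀ i j, i ≠ j → σ i ≠ σ j := fun i j => σ.injective.ne
  obtain ⟨a, ha, e⟩ := h3 (σ 0) (σ 1) (k _ _ (by decide)) (σ 2) (k _ _ (by decide)) (k _ _ (by decide)) (σ 3)
    (k _ _ (by decide)) (k _ _ (by decide)) (k _ _ (by decide)) (σ 4) (k _ _ (by decide)) (k _ _ (by decide))
    (k _ _ (by decide)) (k _ _ (by decide))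
  refine ⟨a, ha, Equiv.ext fun i => ?_⟩
  rw [hf a ha]
  fin_cases i
  exacts [e.1, e.2.1, e.2.2.1, e.2.2.2.1, e.2.2.2.2]

/-- The matrix entries of a code. -/
def en (b : ℕ) (i j : Fin 3) : ZMod 2 := (bit (col b j) i : ℕ)

set_option synthInstance.maxSize 4000 in
set_option synthInstance.maxHeartbeats 400000 in
theorem code_L3 : ∃ c : Matrix.SpecialLinearGroup (Fin 3) (ZMod 2) → ℕ, (∀ h, c h ∈ LG) ∧
    (∀ h h', c (h * h') = mU (c h) (c h')) ∧ (∀ h, c h = iU ↔ h = 1) ∧ ∀ a ∈ LG, ∃ h, c h = a := by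
  have h1 : ∀ b ∈ LG, en b 0 0 * en b 1 1 * en b 2 2 - en b 0 0 * en b 1 2 * en b 2 1 - en b 0 1 * en b 1 0 * en b 2 2 +
      en b 0 1 * en b 1 2 * en b 2 0 + en b 0 2 * en b 1 0 * en b 2 1 - en b 0 2 * en b 1 1 * en b 2 0 = 1 := by
    decide +kernel
  let f : ℕ → Matrix.SpecialLinearGroup (Fin 3) (ZMod 2) := fun b => if h : b ∈ LG then
    ⟨Matrix.of (en b), by rw [Matrix.det_fin_three]; exact h1 b h⟩ else 1
  have hf : ∀ b ∈ LG, ∀ i j, (f b).1 i j = en b i j := fun b hb i j => by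
    rw [show f b = _ from dif_pos hb]; rfl
  have h2 : ∀ b ∈ LG, ∀ u < 8, ∀ i : Fin 3, ((bit (aU b u) i : ℕ) : ZMod 2) =
      en b i 0 * (bit u 0 : ℕ) + en b i 1 * (bit u 1 : ℕ) + en b i 2 * (bit u 2 : ℕ) := by decide +kernel
  have h3 : ∀ b ∈ LG, ∀ j : Fin 3, col b j = aU b (2 ^ (j : ℕ)) ∧ 2 ^ (j : ℕ) < 8 := by decide +kernel
  have h4 : ∀ a ∈ LG, ∀ b ∈ LG, (∀ i j, en a i j = en b i j) → a = b := by decide +kernel
  have h5 : ∀ p q r s t u v w x : ZMod 2, p * t * x - p * u * w - q * s * x + q * u * v + r * s * w - r * t * v = 1 →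
      ∃ b ∈ LG, (en b 0 0 = p ∧ en b 0 1 = q ∧ en b 0 2 = r) ∧ (en b 1 0 = s ∧ en b 1 1 = t ∧ en b 1 2 = u) ∧
        en b 2 0 = v ∧ en b 2 1 = w ∧ en b 2 2 = x := by decide +kernel
  refine exists_code f iU_mem (vU_spec _ iU_mem).2.2.2.1 (fun a ha b hb => mU_mem ha hb)
    (fun a ha b hb => Matrix.SpecialLinearGroup.ext _ _ fun i j => ?_)
    (fun a ha b hb e => h4 a ha b hb fun i j => by rw [← hf a ha, ← hf b hb, e]) fun M => ?_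
  · change (f _).1 i j = ((f a).1 * (f b).1) i j
    rw [Matrix.mul_apply, Fin.sum_univ_three, hf _ (mU_mem ha hb), en, (h3 _ (mU_mem ha hb) j).1,
      ((mU_spec ha hb).2.2 _ (h3 _ hb j).2).1, ← (h3 _ hb j).1, h2 a ha _ (col_lt _ _)]
    simp only [hf a ha, hf b hb]; rfl
  · obtain ⟨b, hb, e⟩ := h5 _ _ _ _ _ _ _ _ _ ((Matrix.det_fin_three M.1).symm.trans M.2)
    refine ⟨b, hb, Matrix.SpecialLinearGroup.ext _ _ fun i j => (hf b hb i j).trans ?_⟩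
    fin_cases i <;> fin_cases j
    exacts [e.1.1, e.1.2.1, e.1.2.2, e.2.1.1, e.2.1.2.1, e.2.1.2.2, e.2.2.1, e.2.2.2.1, e.2.2.2.2]

variable {G : Type*} [Group G]

/-- The quotient map, in codes. -/
structure Pre (K L : Subgroup G) (A B : G → ℕ) : Prop where
  le : L ≤ K
  A_mem : ∀ g ∈ K, A g ∈ LS
  B_mem : ∀ g ∈ K, B g ∈ LG
  A_mul : ∀ g ∈ K, ∀ h ∈ K, A (g * h) = mN (A g) (A h)
  B_mul : ∀ g ∈ K, ∀ h ∈ K, B (g * h) = mU (B g) (B h)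
  ker : ∀ g ∈ K, g ∈ L ↔ A g = iN ∧ B g = iU
  surj : ∀ a ∈ LS, ∀ b ∈ LG, ∃ g ∈ K, A g = a ∧ B g = b

theorem exists_pre {K L : Subgroup G} (h : L ≤ K) [(L.subgroupOf K).Normal]
    (e : K ⧸ L.subgroupOf K ≃* Equiv.Perm (Fin 5) × Matrix.SpecialLinearGroup (Fin 3) (ZMod 2)) :
    ∃ A B, Pre K L A B := by
  classical
  obtain ⟨c, c1, c2, c3, c4⟩ := code_S5
  obtain ⟨d, d1, d2, d3, d4⟩ := code_L3
  let ρ := e.toMonoidHom.comp (QuotientGroup.mk' _)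
  refine ⟨fun g => if h : g ∈ K then c (ρ ⟨g, h⟩).1 else 0, fun g => if h : g ∈ K then d (ρ ⟨g, h⟩).2 else 0, h,
    fun g hg => by rw [dif_pos hg]; exact c1 _, fun g hg => by rw [dif_pos hg]; exact d1 _, fun g hg k hk => ?_,
    fun g hg k hk => ?_, fun g hg => ?_, fun a ha b hb => ?_⟩
  · rw [dif_pos hg, dif_pos hk, dif_pos (mul_mem hg hk), ← c2, ← Prod.fst_mul, ← map_mul]; rfl
  · rw [dif_pos hg, dif_pos hk, dif_pos (mul_mem hg hk), ← d2, ← Prod.snd_mul, ← map_mul]; rfl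
  · rw [dif_pos hg, dif_pos hg, c3, d3, ← Prod.mk_eq_one]
    exact ((QuotientGroup.eq_one_iff (N := L.subgroupOf K) ⟨g, hg⟩).symm.trans e.map_eq_one_iff.symm)
  · obtain ⟨p, rfl⟩ := c4 a ha
    obtain ⟨q, rfl⟩ := d4 b hb
    obtain ⟨g, hg⟩ := (e.surjective.comp (QuotientGroup.mk'_surjective _)) (p, q)
    have hg' : ρ ⟨g, g.2⟩ = (p, q) := hg
    exact ⟨g, g.2, by rw [dif_pos g.2, hg'], by rw [dif_pos g.2, hg']⟩

namespace Pre

variable {K L : Subgroup G} {A B : G → ℕ} (h : Pre K L A B)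
include h

theorem tw : Pre K L A fun g => tU (B g) where
  le := h.le
  A_mem := h.A_mem
  B_mem g hg := (tU_spec _ (h.B_mem g hg)).1
  A_mul := h.A_mul
  B_mul g hg k hk := by rw [h.B_mul g hg k hk, (mU_spec (h.B_mem g hg) (h.B_mem k hk)).2.1]
  ker g hg := (h.ker g hg).trans (and_congr_right fun _ => ⟨fun e => by rw [e, tU_iU],
    fun e => by rw [← (tU_spec _ (h.B_mem g hg)).2.1, e, tU_iU]⟩)
  surj a ha b hb := let ⟨g, hg, e, e'⟩ := h.surj a ha _ (tU_spec b hb).1; ⟨g, hg, e, by rw [e', (tU_spec b hb).2.1]⟩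

theorem div_mem {g k : G} (hg : g ∈ K) (hk : k ∈ K) (e : A g = A k) (e' : B g = B k) : g⁻¹ * k ∈ L := by
  have h1 := (h.ker 1 (one_mem K)).1 (one_mem L)
  rw [h.ker _ (mul_mem (inv_mem hg) hk), h.A_mul _ (inv_mem hg) _ hk, h.B_mul _ (inv_mem hg) _ hk, ← e, ← e',
    ← h.A_mul _ (inv_mem hg) _ hg, ← h.B_mul _ (inv_mem hg) _ hg, inv_mul_cancel]
  exact h1

/-- The action on a section that `L` centralises. -/
theorem exists_act {M : Type*} [CommGroup M] (φ : K →* MulAut M) (hφ : ∀ g : K, (g : G) ∈ L → φ g = 1)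
    (sq : ∀ m : M, m * m = 1) (y7 : ∀ b ∈ LG, o7 b → ∃ g : K, A g = iN ∧ B g = b ∧ ∀ m, φ g m = m → m = 1) :
    ∃ P : Act M, ∀ (g : K) m, P.α (A g) (P.β (B g) m) = φ g m := by
  classical
  have k : ∀ g k : K, A g = A k → B g = B k → φ g = φ k := fun g k e e' =>
    inv_mul_eq_one.1 (by rw [← map_inv, ← map_mul]; exact hφ _ (h.div_mem g.2 k.2 e e'))
  have : ∀ a b, ∃ g : K, a ∈ LS → b ∈ LG → A g = a ∧ B g = b := fun a b => by
    by_cases hab : a ∈ LS ∧ b ∈ LG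
    · obtain ⟨g, hg, e⟩ := h.surj a hab.1 b hab.2
      exact ⟨⟨g, hg⟩, fun _ _ => e⟩
    · exact ⟨1, fun ha hb => absurd ⟨ha, hb⟩ hab⟩
  choose r hr using this
  have m1 : ∀ a ∈ LS, ∀ a' ∈ LS, ∀ b ∈ LG, ∀ b' ∈ LG, ∀ m, φ (r (mN a a') (mU b b')) m = φ (r a b) (φ (r a' b') m) :=
    fun a ha a' ha' b hb b' hb' m => by
      rw [← MulAut.mul_apply, ← map_mul, k _ (r a b * r a' b')]
      · rw [(hr _ _ (mN_mem ha ha') (mU_mem hb hb')).1, coe_mul, h.A_mul _ (r a b).2 _ (r a' b').2, (hr _ _ ha hb).1,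
          (hr _ _ ha' hb').1]
      · rw [(hr _ _ (mN_mem ha ha') (mU_mem hb hb')).2, coe_mul, h.B_mul _ (r a b).2 _ (r a' b').2, (hr _ _ ha hb).2,
          (hr _ _ ha' hb').2]
  have m2 : ∀ m, φ (r iN iU) m = m := fun m => by
    rw [hφ _ ((h.ker _ (r iN iU).2).2 (hr _ _ iN_mem iU_mem))]; rfl
  have m3 : ∀ g : K, φ (r (A g) (B g)) = φ g := fun g =>
    k _ _ (hr _ _ (h.A_mem _ g.2) (h.B_mem _ g.2)).1 (hr _ _ (h.A_mem _ g.2) (h.B_mem _ g.2)).2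
  refine ⟨⟨fun a => (φ (r a iU)).toMonoidHom, fun b => (φ (r iN b)).toMonoidHom, sq, fun a ha a' ha' m => ?_, m2,
    fun b hb b' hb' m => ?_, m2, fun a ha b hb m => ?_, fun b hb h7 m e => ?_⟩, fun g m => ?_⟩
  · exact ((vU_spec _ iU_mem).2.2.2.1 ▸ m1 a ha a' ha' _ iU_mem _ iU_mem m :)
  · exact ((vN_spec _ iN_mem).2.2.2.1 ▸ m1 _ iN_mem _ iN_mem b hb b' hb' m :)
  · have e1 := m1 a ha _ iN_mem _ iU_mem b hb m
    have e2 := m1 _ iN_mem a ha b hb _ iU_mem m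
    rw [(vN_spec a ha).2.2.2.1, (vU_spec b hb).2.2.2.2.1] at e1
    rw [(vN_spec a ha).2.2.2.2.1, (vU_spec b hb).2.2.2.1] at e2
    exact e1.symm.trans e2
  · obtain ⟨g, e1, e2, e3⟩ := y7 b hb h7
    exact e3 m (by rw [← m3 g, e1, e2]; exact e)
  · have e1 := m1 _ (h.A_mem _ g.2) _ iN_mem _ iU_mem _ (h.B_mem _ g.2) m
    rw [(vN_spec _ (h.A_mem _ g.2)).2.2.2.1, (vU_spec _ (h.B_mem _ g.2)).2.2.2.2.1, m3] at e1
    exact e1.symm

end Pre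

end Cfsg.Agent.Pn
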