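import Mathlib
import Cfsg.Agent.Pn.Pre
import Cfsg.Agent.Pn.ModU
import Cfsg.Agent.Pn.ModZ

/-! Construction of the frame. -/

set_option autoImplicit false

namespace Cfsg.Agent.Pn

open Subgroup

variable {G : Type*} [Group G]

/-- The hypotheses on `Z ≤ L ≤ N(Z)`. -/
structure Hy (Z L : Subgroup G) : Prop where
  le : Z ≤ L
  cen : ∀ l ∈ L, l ∈ Z ↔ ∀ k ∈ L, l * k = k * l
  sqZ : ∀ z ∈ Z, z * z = 1
  comm : ∀ l ∈ L, ∀ k ∈ L, l * k * l⁻¹ * k⁻¹ ∈ Z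
  ne : ∃ l ∈ L, l ∉ Z
  cL : Nat.card L = 2 ^ 15
  cZ : Nat.card Z = 8
  nL : normalizer (Z : Set G) ≤ normalizer (L : Set G)
  xy : ∀ x ∈ normalizer (Z : Set G), ∀ y ∈ normalizer (Z : Set G), orderOf x = 3 → orderOf y = 7 → x * y = y * x →
    L ⊓ centralizer {x} = Z ∧ L ⊓ centralizer {y} = ⊥

namespace Hy

variable {Z L : Subgroup G} (h : Hy Z L) {A B : G → ℕ}
include h

theorem zc {z l : G} (hz : z ∈ Z) (hl : l ∈ L) : z * l = l * z := (h.cen z (h.le hz)).1 hz l hl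

theorem sq {l : G} (hl : l ∈ L) : l * l ∈ Z := (h.cen _ (mul_mem hl hl)).2 fun k hk => by
  have h1 := h.comm l hl k hk
  have h2 := h.sqZ _ h1
  have h3 := h.zc h1 hl
  calc _ = l * (l * k * l⁻¹ * k⁻¹) * k * l := by group
    _ = l * k * l⁻¹ * k⁻¹ * (l * k * l⁻¹ * k⁻¹) * (k * (l * l)) := by rw [← h3]; group
    _ = _ := by rw [h2, one_mul]

/-- Commuting lifts of orders three and seven. -/
theorem lifts [Finite G] (p : Pre (normalizer (Z : Set G)) L A B) {a b : ℕ} (ha : a ∈ LS) (h3 : o3 a) (hb : b ∈ LG)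
    (h7 : o7 b) : (∃ x ∈ normalizer (Z : Set G), A x = a ∧ B x = iU ∧ x ^ 3 = 1 ∧ L ⊓ centralizer {x} = Z) ∧
      ∃ y ∈ normalizer (Z : Set G), A y = iN ∧ B y = b ∧ L ⊓ centralizer {y} = ⊥ := by
  obtain ⟨g, hg, e1, e2⟩ := p.surj a ha b hb
  have k := (p.ker 1 (one_mem _)).1 (one_mem L)
  have hA : ∀ n, A (g ^ (n + 3)) = A (g ^ n) := fun n => by
    rw [pow_add, p.A_mul _ (pow_mem hg _) _ (pow_mem hg _), pow_succ', pow_two, p.A_mul _ hg _ (mul_mem hg hg),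
      p.A_mul _ hg _ hg, e1, h3.2, (vN_spec _ (p.A_mem _ (pow_mem hg n))).2.2.2.1]
  have hB : ∀ n, B (g ^ (n + 7)) = B (g ^ n) := fun n => by
    have h2 := mul_mem hg hg
    rw [pow_add, p.B_mul _ (pow_mem hg _) _ (pow_mem hg _), show g ^ 7 = g * (g * g) * (g * g * (g * g)) by
      simp only [pow_succ, pow_zero, one_mul, mul_assoc], p.B_mul _ (mul_mem hg h2) _ (mul_mem h2 h2),
      p.B_mul _ hg _ h2, p.B_mul _ h2 _ h2, p.B_mul _ hg _ hg, e2, h7.2,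
      (vU_spec _ (p.B_mem _ (pow_mem hg n))).2.2.2.1]
  have hA' : ∀ j n, A (g ^ (n + 3 * j)) = A (g ^ n) := fun j n => by
    induction j with
    | zero => rfl
    | succ j ih => rw [mul_add, mul_one, ← add_assoc, hA, ih]
  have hB' : ∀ j n, B (g ^ (n + 7 * j)) = B (g ^ n) := fun j n => by
    induction j with
    | zero => rfl
    | succ j ih => rw [mul_add, mul_one, ← add_assoc, hB, ih]
  have h21 : g ^ 21 ∈ L := (p.ker _ (pow_mem hg _)).2 ⟨(hA' 7 0).trans (by rw [pow_zero, k.1]),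
    (hB' 3 0).trans (by rw [pow_zero, k.2])⟩
  have h1 : (g ^ 21) ^ 2 ^ 15 = 1 := by
    rw [← h.cL]; exact congrArg Subtype.val (pow_card_eq_one' (x := (⟨_, h21⟩ : L)))
  have x1 : A (g ^ (7 * 2 ^ 18)) = a := (hA' 611669 1).trans (by rw [pow_one, e1])
  have x2 : B (g ^ (7 * 2 ^ 18)) = iU := (hB' (2 ^ 18) 0).trans (by rw [pow_zero, k.2])
  have y1 : A (g ^ (15 * 2 ^ 18)) = iN := (hA' (5 * 2 ^ 18) 0).trans (by rw [pow_zero, k.1])
  have y2 : B (g ^ (15 * 2 ^ 18)) = b := (hB' 561737 1).trans (by rw [pow_one, e2])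
  have x3 : (g ^ (7 * 2 ^ 18)) ^ 3 = 1 := by
    rw [← pow_mul, show 7 * 2 ^ 18 * 3 = 21 * 2 ^ 15 * 8 by norm_num, pow_mul, pow_mul, h1, one_pow]
  have y7 : (g ^ (15 * 2 ^ 18)) ^ 7 = 1 := by
    rw [← pow_mul, show 15 * 2 ^ 18 * 7 = 21 * 2 ^ 15 * 40 by norm_num, pow_mul, pow_mul, h1, one_pow]
  have : Fact (Nat.Prime 7) := ⟨by norm_num⟩
  have := h.xy _ (pow_mem hg _) _ (pow_mem hg _) (orderOf_eq_prime x3 fun e => h3.1 (by rw [← x1, e, k.1]))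
    (orderOf_eq_prime y7 fun e => h7.1 (by rw [← y2, e, k.2])) (pow_mul_comm g _ _)
  exact ⟨⟨_, pow_mem hg _, x1, x2, x3, this.1⟩, _, pow_mem hg _, y1, y2, this.2⟩

theorem fix3 {x l : G} (h3 : x ^ 3 = 1) (hx : L ⊓ centralizer {x} = Z) (hl : l ∈ L)
    (e : (x * l * x⁻¹)⁻¹ * l ∈ Z) : l ∈ Z := by
  have h1 : (x * l * x⁻¹)⁻¹ * l * x = x * ((x * l * x⁻¹)⁻¹ * l) := mem_centralizer_singleton_iff.1 (hx.ge e).2
  have h2 := h.sqZ _ e
  generalize hw : (x * l * x⁻¹)⁻¹ * l = w at h1 h2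
  have h4 : l⁻¹ * x * l = x * w⁻¹ := by
    have : x * w⁻¹ = w⁻¹ * x := by
      calc _ = w⁻¹ * (w * x) * w⁻¹ := by group
        _ = _ := by rw [h1]; group
    rw [this, ← hw]; group
  have h5 : (x * w⁻¹) ^ 3 = 1 := by
    rw [← h4]
    calc _ = l⁻¹ * x ^ 3 * l := by simp only [pow_succ, pow_zero, one_mul, mul_assoc, mul_inv_cancel_left]
      _ = 1 := by rw [h3]; group
  rw [(show Commute w x from h1).symm.inv_right.mul_pow, h3, one_mul, inv_pow, inv_eq_one, pow_succ, pow_two, h2,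
    one_mul] at h5
  rw [h5, inv_one, mul_one] at h4
  refine hx.le ⟨hl, mem_centralizer_singleton_iff.2 ?_⟩
  calc _ = l * (l⁻¹ * x * l) := by rw [h4]
    _ = _ := by group

theorem fix7 [Finite G] {y l : G} (hn : y ∈ normalizer (Z : Set G)) (hy : L ⊓ centralizer {y} = ⊥) (hl : l ∈ L)
    (e : (y * l * y⁻¹)⁻¹ * l ∈ Z) : l ∈ Z := by
  have k : ∀ z ∈ Z, y * z * y⁻¹ ∈ Z := fun z hz => (mem_normalizer_iff.1 hn z).1 hz
  have k1 : ∀ z ∈ L, y * z * y⁻¹ = z → z = 1 := fun z hz e =>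
    mem_bot.1 (hy.le ⟨hz, mem_centralizer_singleton_iff.2 (mul_inv_eq_iff_eq_mul.1 e).symm⟩)
  let f : Z → Z := fun z => ⟨y * z * y⁻¹ * (z : G)⁻¹, mul_mem (k z z.2) (inv_mem z.2)⟩
  have hf : Function.Injective f := fun u v e => Subtype.ext (inv_mul_eq_one.1 (k1 _
    (h.le (mul_mem (inv_mem u.2) v.2)) (by
      have e1 : y * u * y⁻¹ * (u : G)⁻¹ = y * v * y⁻¹ * (v : G)⁻¹ := congrArg Subtype.val e
      have e2 := h.zc (k _ (inv_mem u.2)) (h.le (f u).2)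
      calc _ = y * (u : G)⁻¹ * y⁻¹ * (y * v * y⁻¹ * (v : G)⁻¹) * v := by group
        _ = _ := by rw [← e1]; group)))
  obtain ⟨z, hz⟩ := Finite.surjective_of_injective hf ⟨_, e⟩
  have hz' : y * z * y⁻¹ * (z : G)⁻¹ = (y * l * y⁻¹)⁻¹ * l := congrArg Subtype.val hz
  have := k1 (l * z) (mul_mem hl (h.le z.2)) (by
    calc _ = y * l * y⁻¹ * (y * z * y⁻¹ * (z : G)⁻¹) * z := by group
      _ = _ := by rw [hz']; group)
  rw [eq_inv_of_mul_eq_one_left this]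
  exact inv_mem z.2

theorem fk_of (p : Pre (normalizer (Z : Set G)) L A B) {M N : Type*} [CommGroup M] [CommGroup N] [Finite M]
    [Finite N] (π : L →* M) (hπ : ∀ l : L, π l = 1 ↔ (l : G) ∈ Z) (sπ : Function.Surjective π) (ι : N →* G)
    (hι : Function.Injective ι) (rι : ∀ g, g ∈ Z ↔ ∃ w, ι w = g) (cN : Nat.card N = 8) (P : Act M) (R : Act N)
    (hP : ∀ g ∈ normalizer (Z : Set G), ∀ l k : L, g * l * g⁻¹ = k → P.α (A g) (P.β (B g) (π l)) = π k)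
    (hR : ∀ g ∈ normalizer (Z : Set G), ∀ w, ι (R.α (A g) (R.β (B g) w)) = g * ι w * g⁻¹)
    (hx : ∀ a ∈ LS, o3 a → ∀ w, R.α a w = w) {Φ : ℕ → M} (hΦ : P.Co Φ) : Nonempty (Fk G) := by
  choose o ho using sπ
  have e0 : ∀ l k : L, π l = π k → ∃ z ∈ Z, (k : G) = l * z := fun l k e =>
    ⟨_, (hπ (l⁻¹ * k)).1 (by rw [map_mul, map_inv, e, inv_mul_cancel]), by simp⟩
  choose c hc using fun m k => (rι _).1 (h.comm _ (o m).2 _ (o k).2)
  choose q hq using fun m => (rι _).1 (h.sq (o m).2)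
  have hc' : ∀ l k : L, ι (c (π l) (π k)) = l * k * (l : G)⁻¹ * (k : G)⁻¹ := fun l k => by
    obtain ⟨u, hu, e1⟩ := e0 _ _ (ho (π l)).symm
    obtain ⟨v, hv, e2⟩ := e0 _ _ (ho (π k)).symm
    have h1 := h.zc hu (mul_mem k.2 (h.le hv))
    have h2 := h.zc hv (inv_mem l.2)
    rw [hc, e1, e2]
    calc _ = l * (u * (k * v)) * u⁻¹ * (l : G)⁻¹ * v⁻¹ * (k : G)⁻¹ := by group
      _ = l * k * (v * (l : G)⁻¹) * v⁻¹ * (k : G)⁻¹ := by rw [h1]; group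
      _ = _ := by rw [h2]; group
  have hq' : ∀ l : L, ι (q (π l)) = l * l := fun l => by
    obtain ⟨u, hu, e1⟩ := e0 _ _ (ho (π l)).symm
    rw [hq, e1]
    calc _ = l * (u * l) * u := by group
      _ = _ := by rw [h.zc hu l.2, mul_assoc, mul_assoc, h.sqZ u hu, mul_one]
  have cj : ∀ g ∈ normalizer (Z : Set G), ∀ l : L, ∃ k : L, g * l * g⁻¹ = k := fun g hg l =>
    ⟨⟨_, (mem_normalizer_iff.1 (h.nL hg) _).1 l.2⟩, rfl⟩
  have ind : ∀ {S : M → Prop}, (∀ l, S (π l)) → ∀ m, S m := fun hS m => ho m ▸ hS _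
  have eqv : ∀ a ∈ LS, ∀ b ∈ LG, ∀ m, ι (q (P.α a (P.β b m))) = ι (R.α a (R.β b (q m))) ∧
      ∀ k, ι (c (P.α a (P.β b m)) (P.α a (P.β b k))) = ι (R.α a (R.β b (c m k))) := fun a ha b hb => by
    obtain ⟨g, hg, rfl, rfl⟩ := p.surj a ha b hb
    refine ind fun l => ?_
    obtain ⟨l', e1⟩ := cj g hg l
    refine ⟨by rw [hP g hg _ _ e1, hR g hg, hq', hq', ← e1]; group, ind fun k => ?_⟩
    obtain ⟨k', e2⟩ := cj g hg k
    rw [hP g hg _ _ e1, hP g hg _ _ e2, hR g hg, hc', hc', ← e1, ← e2]; group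
  have cq : Cq P R c q := by
    refine ⟨ind fun l => ind fun l' => ind fun k => hι ?_, ind fun l => ind fun k => ind fun k' => hι ?_,
      ind fun l => hι (by rw [hc', map_one]; group), ind fun l => ind fun k => hι ?_,
      fun a ha m k => hι (by simpa only [P.β_one, R.β_one] using (eqv a ha _ iU_mem m).2 k),
      fun b hb m k => hι (by simpa only [P.α_one, R.α_one] using (eqv _ iN_mem b hb m).2 k),
      fun b hb m => hι (by simpa only [P.α_one, R.α_one] using (eqv _ iN_mem b hb m).1), ?_⟩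
    · rw [← map_mul, map_mul ι, hc', hc', hc', coe_mul, ← h.zc (h.comm _ l'.2 _ k.2) (h.le (h.comm _ l.2 _ k.2))]
      calc _ = l * (l' * k * (l' : G)⁻¹ * (k : G)⁻¹) * (k * (l : G)⁻¹ * (k : G)⁻¹) := by group
        _ = _ := by rw [← h.zc (h.comm _ l'.2 _ k.2) l.2]; group
    · rw [← map_mul, map_mul ι, hc', hc', hc', coe_mul]
      calc _ = l * k * (l : G)⁻¹ * ((l * k' * (l : G)⁻¹ * (k' : G)⁻¹) * (k : G)⁻¹) := by group
        _ = _ := by rw [h.zc (h.comm _ l.2 _ k'.2) (inv_mem k.2)]; group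
    · have h1 := h.comm _ l.2 _ k.2
      rw [← map_mul, map_mul ι, map_mul ι, hq', hq', hq', hc', coe_mul, ← h.zc h1 (mul_mem (mul_mem l.2 l.2)
        (mul_mem k.2 k.2)), ← inv_eq_of_mul_eq_one_left (h.sqZ _ h1), ← mul_assoc, ← mul_assoc, ← mul_assoc,
        ← mul_assoc, h.zc (inv_mem h1) l.2]
      group
    · obtain ⟨l, hl, hn⟩ := h.ne
      by_contra hc
      refine hn ((h.cen l hl).2 fun k hk => ?_)
      have := hc' ⟨l, hl⟩ ⟨k, hk⟩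
      rw [not_not.1 (not_exists.1 (not_exists.1 hc _) _), map_one] at this
      exact mul_inv_eq_iff_eq_mul.1 (mul_inv_eq_one.1 this.symm)
  obtain ⟨ζ, z1, z2, z3, z4, z5, z6, z7⟩ := cq.exists_ζ hΦ cN hx
  have e1 : ∀ l k : L, π l = π k → ∃ c < 8, (k : G) = l * ι (ζ c) := fun l k e => by
    obtain ⟨u, hu, e⟩ := e0 l k e
    obtain ⟨w, rfl⟩ := (rι u).1 hu
    obtain ⟨c, hc, rfl⟩ := z3 w
    exact ⟨c, hc, e⟩
  exact ⟨{
    Z := Z, L := L, z := fun c => ι (ζ c), l := fun m => o (Φ m), A := A, B := B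
    z_xor := fun a ha b hb => by rw [z1 a ha b hb, map_mul]
    z_inj := fun a ha e => z2 a ha (hι (e.trans ι.map_one.symm))
    memZ := fun g => (rι g).trans ⟨fun ⟨w, e⟩ => let ⟨c, hc, e'⟩ := z3 w; ⟨c, hc, e' ▸ e⟩, fun ⟨_, _, e⟩ => ⟨_, e⟩⟩
    memL := fun g => ⟨fun hg => let ⟨m, hm, e⟩ := hΦ.surj (π ⟨g, hg⟩); ⟨m, hm, e1 _ ⟨g, hg⟩ ((ho _).trans e)⟩,
      fun ⟨_, _, _, _, e⟩ => e ▸ mul_mem (o _).2 (h.le ((rι _).2 ⟨_, rfl⟩))⟩
    l_xor := fun a ha b hb => e1 _ (o (Φ a) * o (Φ b)) (by rw [map_mul, ho, ho, ho, hΦ.xor a ha b hb])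
    l_inj := fun m hm e => hΦ.inj m hm ((ho _).symm.trans ((hπ _).2 e))
    zc := fun m _ c _ => (h.zc ((rι _).2 ⟨_, rfl⟩) (o _).2).symm
    comm := fun a ha b hb => by rw [← hc, z6 a ha b hb]
    sq := fun a ha => by rw [← hq, z7 a ha]
    L_le := p.le, A_mem := p.A_mem, B_mem := p.B_mem, A_mul := p.A_mul, B_mul := p.B_mul, ker := p.ker, surj := p.surj
    act_l := fun g hg m hm => by
      obtain ⟨k, e⟩ := cj g hg (o (Φ m))
      rw [e]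
      exact e1 _ _ (by rw [ho, ← hP g hg _ _ e, ho, hΦ.act _ (p.A_mem g hg) _ (p.B_mem g hg) m hm])
    act_z := fun g hg c hc => by rw [← hR g hg, z4 _ (p.A_mem g hg), z5 _ (p.B_mem g hg) c hc] }⟩

theorem exists_fk [Finite G] (p : Pre (normalizer (Z : Set G)) L A B) : Nonempty (Fk G) := by
  have : (Z.subgroupOf L).Normal := ⟨fun z hz l => mem_subgroupOf.2 (by
    rw [coe_mul, coe_mul, ← h.zc (mem_subgroupOf.1 hz) l.2, InvMemClass.coe_inv, mul_inv_cancel_right]; exact hz)⟩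
  have hπ : ∀ l k : L, (l : L ⧸ Z.subgroupOf L) = k ↔ (l : G)⁻¹ * k ∈ Z := fun l k => QuotientGroup.eq
  let _ : CommGroup (L ⧸ Z.subgroupOf L) := { (inferInstance : Group (L ⧸ Z.subgroupOf L)) with
    mul_comm := by
      rintro ⟨l⟩ ⟨k⟩
      exact (hπ (l * k) (k * l)).2 (by simpa [mul_assoc] using h.comm _ (inv_mem k.2) _ (inv_mem l.2)) }
  let _ : CommGroup Z := { (inferInstance : Group Z) with
    mul_comm := fun u v => Subtype.ext (h.zc u.2 (h.le v.2)) }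
  let ψ := L.normalizerMonoidHom.comp (inclusion h.nL)
  have hψ : ∀ g l, (ψ g l : G) = g * l * (g : G)⁻¹ := fun _ _ => rfl
  let φ : normalizer (Z : Set G) →* MulAut (L ⧸ Z.subgroupOf L) := MonoidHom.mk'
    (fun g => QuotientGroup.congr _ _ (ψ g) (Subgroup.ext fun l => (mem_map_equiv (f := ψ g)).trans
      ((mem_normalizer_iff.1 (inv_mem g.2) _).symm)))
    fun g k => MulEquiv.ext (by rintro ⟨l⟩; exact congrArg QuotientGroup.mk (by rw [map_mul]; rfl))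
  have hφ : ∀ g (l : L), φ g l = (ψ g l : L) := fun _ _ => rfl
  have s1 : ∀ b ∈ LG, o7 b → ∃ y ∈ normalizer (Z : Set G), A y = iN ∧ B y = b ∧ L ⊓ centralizer {y} = ⊥ :=
    fun b hb h7 => (h.lifts p x0_mem x0_o3 hb h7).2
  have s2 : ∀ a ∈ LS, o3 a → ∃ x ∈ normalizer (Z : Set G), A x = a ∧ B x = iU ∧ x ^ 3 = 1 ∧ L ⊓ centralizer {x} = Z :=
    fun a ha h3 => (h.lifts p ha h3 (b := 94) (by decide +kernel) (by decide +kernel)).1
  obtain ⟨P, hP⟩ := p.exists_act φ (fun g hg => MulEquiv.ext (by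
      rintro ⟨l⟩
      exact (hπ (ψ g l) l).2 (by simpa [hψ, mul_assoc] using h.comm _ hg _ (inv_mem l.2))))
    (by rintro ⟨l⟩; exact (QuotientGroup.eq_one_iff (l * l)).2 (h.sq l.2)) fun b hb h7 => by
      obtain ⟨y, hy, e1, e2, e3⟩ := s1 b hb h7
      refine ⟨⟨y, hy⟩, e1, e2, ?_⟩
      rintro ⟨l⟩ e
      exact (QuotientGroup.eq_one_iff l).2 (h.fix7 hy e3 l.2 ((hπ (ψ ⟨y, hy⟩ l) l).1 e))
  obtain ⟨R, hR⟩ := p.exists_act Z.normalizerMonoidHom (fun g hg => MulEquiv.ext fun z => Subtype.ext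
      (mul_inv_eq_iff_eq_mul.2 (h.zc z.2 hg).symm)) (fun z => Subtype.ext (h.sqZ z z.2)) fun b hb h7 => by
    obtain ⟨y, hy, e1, e2, e3⟩ := s1 b hb h7
    exact ⟨⟨y, hy⟩, e1, e2, fun z e => Subtype.ext (mem_bot.1 (e3.le ⟨h.le z.2, mem_centralizer_singleton_iff.2
      (mul_inv_eq_iff_eq_mul.1 (congrArg Subtype.val e)).symm⟩))⟩
  have hP' : ∀ g ∈ normalizer (Z : Set G), ∀ l k : L, g * l * g⁻¹ = k →
      P.α (A g) (P.β (B g) (QuotientGroup.mk' _ l)) = QuotientGroup.mk' _ k := fun g hg l k e =>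
    (hP ⟨g, hg⟩ _).trans (congrArg QuotientGroup.mk (Subtype.ext e : ψ ⟨g, hg⟩ l = k))
  have hR' : ∀ g ∈ normalizer (Z : Set G), ∀ w, Z.subtype (R.α (A g) (R.β (B g) w)) = g * Z.subtype w * g⁻¹ :=
    fun g hg w => congrArg Subtype.val (hR ⟨g, hg⟩ w)
  have hx : ∀ a ∈ LS, o3 a → ∀ w, R.α a w = w := fun a ha h3 w => by
    obtain ⟨x, hx, e1, e2, -, e3⟩ := s2 a ha h3
    have := hR' x hx w
    rw [e1, e2, R.β_one] at this
    exact Subtype.ext (this.trans (mul_inv_eq_iff_eq_mul.2 (mem_centralizer_singleton_iff.1 (e3.ge w.2).2).symm))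
  rcases P.exists_co (fun a ha h3 => by
      obtain ⟨x, hx, e1, e2, e3, e4⟩ := s2 a ha h3
      rintro ⟨l⟩ e
      have := hP ⟨x, hx⟩ l
      rw [e1, e2, P.β_one] at this
      exact (QuotientGroup.eq_one_iff l).2 (h.fix3 e3 e4 l.2 ((hπ (ψ ⟨x, hx⟩ l) l).1 (this.symm.trans e)))) (by
      have := card_eq_card_quotient_mul_card_subgroup (Z.subgroupOf L)
      rw [h.cL, Nat.card_congr (subgroupOfEquivOfLe h.le).toEquiv, h.cZ] at this
      omega) with ⟨Φ, hΦ⟩ | ⟨Φ, hΦ⟩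
  · exact h.fk_of p (QuotientGroup.mk' _) (fun l => QuotientGroup.eq_one_iff l) (QuotientGroup.mk'_surjective _)
      Z.subtype Z.subtype_injective (fun g => ⟨fun hg => ⟨⟨g, hg⟩, rfl⟩, fun ⟨w, e⟩ => e ▸ w.2⟩) h.cZ P R hP' hR' hx hΦ
  · exact h.fk_of p.tw (QuotientGroup.mk' _) (fun l => QuotientGroup.eq_one_iff l) (QuotientGroup.mk'_surjective _)
      Z.subtype Z.subtype_injective (fun g => ⟨fun hg => ⟨⟨g, hg⟩, rfl⟩, fun ⟨w, e⟩ => e ▸ w.2⟩) h.cZ P.tw R.tw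
      (fun g hg l k e => by rw [← hP' g hg l k e, ← (tU_spec _ (p.B_mem g hg)).2.1, (tU_spec _ (tU_spec _ (p.B_mem g hg)).1).2.1]; rfl)
      (fun g hg w => by rw [← hR' g hg w, ← (tU_spec _ (p.B_mem g hg)).2.1, (tU_spec _ (tU_spec _ (p.B_mem g hg)).1).2.1]; rfl) hx hΦ

end Hy

end Cfsg.Agent.Pn
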