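import Mathlib
import Cfsg.Agent.Pn.Bas
import Cfsg.Agent.GT.PGroupBasic

/-! The elementary abelian group of order `2 ^ 11`. -/

set_option autoImplicit false
set_option linter.unusedSectionVars false

namespace Cfsg.Agent.Pn

open Cfsg.Agent.Spor Cfsg.Agent.Inv.Fz Subgroup
open Cfsg.Agent.R24 (Wc Md NoOdd)

variable {G : Type*} [Group G] [Finite G]

namespace Vs

theorem V0c : ∀ m < 4096, m &&& 0xCCC = 0 → nb m 0 < 4 ∧ nb m 1 < 4 ∧ nb m 2 < 4 ∧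
    m = nb m 0 + 16 * nb m 1 + 256 * nb m 2 := all4096 (by decide +kernel)

theorem V0_of_cM : ∀ m < 4096, cM m 1 = 0 → cM m 2 = 0 → cM m 16 = 0 → cM m 32 = 0 → cM m 256 = 0 → cM m 512 = 0 →
    m &&& 0xCCC = 0 := all4096 (by decide +kernel)

theorem zero_of_cM : ∀ m < 4096, m &&& 0xCCC = 0 → cM m 4 = 0 → cM m 8 = 0 → cM m 64 = 0 → cM m 128 = 0 → m = 0 :=
  all4096 (by decide +kernel)

theorem bt_four : ∀ n < 4, ∀ n' < 4, bt n n' = 0 := by decide +kernel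

theorem cM_V0 {m k : ℕ} (hm : m < 4096) (hk : k < 4096) (h : m &&& 0xCCC = 0) (h' : k &&& 0xCCC = 0) :
    cM m k = 0 := by
  obtain ⟨a0, a1, a2, -⟩ := V0c m hm h
  obtain ⟨b0, b1, b2, -⟩ := V0c k hk h'
  simp only [cM, bt_four _ a0 _ b1, bt_four _ a1 _ b0, bt_four _ a0 _ b2, bt_four _ a2 _ b0, bt_four _ a1 _ b2,
    bt_four _ a2 _ b1]
  rfl

theorem qM_V0 : ∀ m < 4096, m &&& 0xCCC = 0 → qM m = 0 := all4096 (by decide +kernel)

theorem E4_of_fix : ∀ a ∈ LS, aM a iU 1 = 1 → aM a iU 2 = 2 → a ∈ E4 := by decide +kernel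

theorem E4_fix : ∀ a ∈ E4, ∀ i < 4, ∀ j < 4, ∀ k < 4,
    aM a iU (i + 16 * j + 256 * k) ^^^ (i + 16 * j + 256 * k) = 0 := by decide +kernel

theorem E4_sq : ∀ a ∈ E4, mN a a = iN ∧ mN (mN iN a) (vN iN) = a ∧ aN a 1 = 1 ∧ (aM a iU 4 = 4 → a = iN) := by
  decide +kernel

/-- the relation of degree three -/
def R3 (b b' : ℕ) : Prop :=
  (∀ i < 4, ∀ j < 4, ∀ k < 4, (i + 16 * j + 256 * k) ^^^ aM iN b' (i + 16 * j + 256 * k) ^^^
    aM iN (mU b (mU b b)) (i + 16 * j + 256 * k) = 0) ∧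
  ∀ c < 8, c ^^^ aZ b' c ^^^ aZ (mU b (mU b b)) c = 0 → c = 0

instance (b b' : ℕ) : Decidable (R3 b b') := inferInstanceAs (Decidable (_ ∧ _))

theorem r3 : ∀ b ∈ LG, o7 b → R3 b b ∨ R3 b (mU b b) := by decide +kernel

theorem fix94 : ∀ m < 4096, aM iN 94 m = m → m = 0 := all4096 (by decide +kernel)

theorem line : ∀ a ∈ LS, aN a 1 < 4 → ∀ n < 4, aN a n < 4 := by decide +kernel

theorem sp_V0 : ∀ u < 8, ∀ n < 16, (n < 4 → n * sp u &&& 0xCCC = 0) ∧ (u ≠ 0 → n * sp u &&& 0xCCC = 0 → n < 4) := by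
  decide +kernel

theorem cnt_inv : ∀ a ∈ LS, a ≠ iN → mN a a = iN → cnt (fun m => Nat.beq (aM a iU m) m) = 64 := by decide +kernel

theorem seven {F : Fk G} {y : G} {b : ℕ} (hy : F.Ic y iN b) :
    F.Ic (y ^ 7) iN (mU (mU b (mU b b)) (mU (mU b b) (mU b b))) := by
  rw [show y ^ 7 = y * (y * y) * (y * y * (y * y)) by simp only [pow_succ, pow_zero, one_mul, mul_assoc]]
  exact ((hy.mul (hy.mul hy)).mul ((hy.mul hy).mul (hy.mul hy))).of_eq (by decide +kernel) rfl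

theorem exists_y (F : Fk G) : ∃ y, F.Ic y iN 94 ∧ y ^ 7 = 1 := by
  obtain ⟨g, h⟩ := F.lift iN_mem (b := 94) (by decide +kernel)
  obtain ⟨y, -, k⟩ := h.exists_odd (n := 7) (by decide) ((seven h).mem_L.2 ⟨rfl, by decide +kernel⟩)
  exact ⟨y, k⟩

theorem exists_fix {F : Fk G} {y : G} {a b : ℕ} (hy : F.Ic y iN b) (h7 : y ^ 7 = 1) (h : a ∈ E4) :
    ∃ v, F.Ic v a iU ∧ y * v = v * y := by
  classical
  have : Fact (Nat.Prime 7) := ⟨by norm_num⟩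
  have k : ∀ {y b x}, F.Ic y iN b → F.Ic x a iU → F.Ic (y * x * y⁻¹) a iU := fun hy hx =>
    (hy.conj hx).of_eq (E4_sq a h).2.1 (by rw [(vU_spec _ hy.memB).2.2.2.1, (vU_spec _ hy.memB).2.1])
  have k' : ∀ x, F.Ic (MulAut.toPerm G (MulAut.conj y) x) a iU ↔ F.Ic x a iU := fun x =>
    ⟨fun hx => by
      simpa [mul_assoc] using k (x := y * x * y⁻¹) (hy.inv.of_eq (by decide +kernel) rfl) hx, k hy⟩
  obtain ⟨r, hr⟩ := F.lift (E4_sub a h) iU_mem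
  have c : Nat.card {x // F.Ic x a iU} = 2 ^ 15 := F.card_L ▸ Nat.card_congr
    ⟨fun x => ⟨r⁻¹ * x, hr.div_mem x.2⟩, fun x => ⟨r * x, hr.mul_L x.2⟩, fun x => by simp, fun x => by simp⟩
  have := Fintype.ofFinite {x // F.Ic x a iU}
  rw [Nat.card_eq_fintype_card] at c
  obtain ⟨v, hv⟩ := Equiv.Perm.exists_fixed_point_of_prime (p := 7) (n := 1) (α := {x // F.Ic x a iU})
    (c ▸ by decide) (σ := (MulAut.toPerm G (MulAut.conj y)).subtypePerm k') (by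
      rw [Equiv.Perm.subtypePerm_pow]
      ext x
      simp [← map_pow, h7])
  exact ⟨v, v.2, mul_inv_eq_iff_eq_mul.1 (congrArg Subtype.val hv)⟩

end Vs

open Vs

namespace Fk

variable (F : Fk G) {g c : G} {a b : ℕ} {Q : Subgroup G}

theorem V_le_cZ : F.V ≤ centralizer (F.Z : Set G) := centralizer_le (F.Z_le_sub _)

theorem V_inf_L : F.V ⊓ F.L = F.V0 := by
  refine le_antisymm (fun g hg => ?_) fun g hg => ⟨fun h hh => ?_, F.sub_le _ hg⟩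
  · obtain ⟨m, hm⟩ := exists_lc hg.2
    have k : ∀ k < 4096, k &&& 0xCCC = 0 → cM m k = 0 := fun k hk e =>
      (hm.comm_iff (F.lc_l hk)).1 (hg.1 _ ((F.lc_l hk).mem_sub.2 e)).symm
    exact hm.mem_sub.2 (V0_of_cM m hm.lt (k _ (by decide) rfl) (k _ (by decide) rfl) (k _ (by decide) rfl)
      (k _ (by decide) rfl) (k _ (by decide) rfl) (k _ (by decide) rfl))
  · obtain ⟨m, hm, e⟩ := mem_sub.1 hg
    obtain ⟨k, hk, e'⟩ := mem_sub.1 hh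
    exact (hk.comm_iff hm).2 (cM_V0 hk.lt hm.lt e' e)

theorem V0_le_V : F.V0 ≤ F.V := F.V_inf_L ▸ inf_le_left

theorem V_ic (h : g ∈ F.V) : ∃ a ∈ E4, F.Ic g a iU := by
  obtain ⟨a, b, k⟩ := exists_ic (F.cZ_le_K (F.V_le_cZ h))
  obtain rfl := k.mem_cZ.1 (F.V_le_cZ h)
  have f : ∀ m < 4096, m &&& 0xCCC = 0 → aM a iU m = m := fun m hm e =>
    k.fix (F.lc_l hm) (h _ ((F.lc_l hm).mem_sub.2 e)).symm
  exact ⟨a, E4_of_fix a k.memA (f 1 (by decide) rfl) (f 2 (by decide) rfl), k⟩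

/-- A lift that is centralised by a given element of order seven. -/
theorem V_lift' {y : G} (hy : F.Ic y iN b) (h7 : y ^ 7 = 1) (hb : b ≠ iU) (h : a ∈ E4) :
    ∃ v ∈ F.V, F.Ic v a iU ∧ y * v = v * y := by
  obtain ⟨v, hv, e⟩ := exists_fix hy h7 h
  refine ⟨v, fun w hw => ?_, hv, e⟩
  have fZ : ∀ w ∈ F.V0, v * w * v⁻¹ * w⁻¹ ∈ F.Z := fun w hw => by
    obtain ⟨m, hm, e⟩ := mem_sub.1 hw
    obtain ⟨a0, a1, a2, e'⟩ := V0c m hm.lt e
    exact (hv.comm_l hm).mem_Z.2 (e' ▸ E4_fix a h _ a0 _ a1 _ a2)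
  have fm : ∀ w ∈ F.V0, ∀ w' ∈ F.V0, v * (w * w') * v⁻¹ * (w * w')⁻¹ = v * w * v⁻¹ * w⁻¹ * (v * w' * v⁻¹ * w'⁻¹) :=
    fun w hw w' hw' => by
      calc _ = v * w * v⁻¹ * w⁻¹ * (w * (v * w' * v⁻¹ * w'⁻¹) * w⁻¹) := by group
        _ = _ := by rw [comm_LZ (F.sub_le _ hw) (fZ w' hw'), mul_inv_cancel_right]
  obtain ⟨m, hm, e0⟩ := mem_sub.1 hw
  obtain ⟨a0, a1, a2, e'⟩ := V0c m hm.lt e0
  obtain ⟨c, hc, ec⟩ := (F.memZ _).1 (fZ w hw)
  have fc : ∀ {x b'}, F.Ic x iN b' → Commute x v → x * w * x⁻¹ ∈ F.V0 ∧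
      v * (x * w * x⁻¹) * v⁻¹ * (x * w * x⁻¹)⁻¹ = F.z (aZ b' c) := fun {x b'} hx hxv => by
    refine ⟨(hx.conj_l hm).mem_sub.2 ?_, ?_⟩
    · simp only [aM, Nat.and_xor_distrib_right, aN_iN _ (nb_lt _ _), (sp_V0 _ (col_lt _ _) _ (nb_lt _ _)).1 a0,
        (sp_V0 _ (col_lt _ _) _ (nb_lt _ _)).1 a1, (sp_V0 _ (col_lt _ _) _ (nb_lt _ _)).1 a2]
      rfl
    · rw [← hx.conj_z hc, ec]
      calc _ = v * x * w * (v * x)⁻¹ * (x * w * x⁻¹)⁻¹ := by group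
        _ = _ := by rw [← hxv.eq]; group
  have main : ∀ {x b'}, F.Ic x iN b' → Commute x v → R3 b b' → c = 0 := fun {x b'} hx hxv r => by
    have h3 : F.Ic (y * (y * y)) iN (mU b (mU b b)) := (hy.mul (hy.mul hy)).of_eq (by decide +kernel) rfl
    have c3 : Commute (y * (y * y)) v := Commute.mul_left e (Commute.mul_left e e)
    have hz := ((hm.mul (hx.conj_l hm)).mul (h3.conj_l hm)).mem_Z.2 (e' ▸ r.1 _ a0 _ a1 _ a2)
    have h1 := fm _ (mul_mem hw (fc hx hxv).1) _ (fc h3 c3).1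
    rw [fm _ hw _ (fc hx hxv).1, (fc hx hxv).2, (fc h3 c3).2, ← ec, ← (hv.mem_cZ.2 rfl _ hz), mul_inv_cancel_right,
      mul_inv_cancel, ← F.z_xor _ hc _ (aZ_lt _ hx.memB _ hc),
      ← F.z_xor _ (xor8 hc (aZ_lt _ hx.memB _ hc)) _ (aZ_lt _ h3.memB _ hc)] at h1
    exact r.2 c hc (F.z_inj _ (xor8 (xor8 hc (aZ_lt _ hx.memB _ hc)) (aZ_lt _ h3.memB _ hc)) h1.symm)
  obtain rfl : c = 0 := (r3 b hy.memB ⟨hb, ((seven hy).mem_L.1 (h7 ▸ one_mem _)).2⟩).elim (main hy e)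
    (main ((hy.mul hy).of_eq (by decide +kernel) rfl) (Commute.mul_left e e))
  rw [F.z_zero, eq_comm, mul_inv_eq_one, mul_inv_eq_iff_eq_mul] at ec
  exact ec.symm

theorem V_lift (h : a ∈ E4) : ∃ v ∈ F.V, F.Ic v a iU := by
  obtain ⟨y, hy, h7⟩ := exists_y F
  obtain ⟨v, hv, k, -⟩ := F.V_lift' hy h7 (by decide) h
  exact ⟨v, hv, k⟩

theorem sqV : ∀ v ∈ F.V, v * v = 1 := fun v hv => by
  obtain ⟨a, ha, k⟩ := F.V_ic hv
  obtain ⟨y, hy, h7⟩ := exists_y F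
  obtain ⟨v0, hv0, k0, e⟩ := F.V_lift' hy h7 (by decide) ha
  have e2 : y * (v0 * v0) = v0 * v0 * y := (Commute.mul_right e e).eq
  obtain ⟨m, hm⟩ := exists_lc ((k0.mul k0).mem_L.2 ⟨(E4_sq a ha).1, by decide +kernel⟩)
  obtain ⟨c, hc, ec⟩ := (F.memZ _).1 (hm.mem_Z.2 (fix94 m hm.lt (hy.fix hm e2)))
  have h0 : ∀ c < 8, aZ 94 c = c → c = 0 := by decide +kernel
  rw [h0 c hc ((hy.comm_z hc).1 (ec ▸ e2)), F.z_zero] at ec
  have hw : v0⁻¹ * v ∈ F.V0 := F.V_inf_L ▸ mem_inf.2 ⟨mul_mem (inv_mem hv0) hv, k0.div_mem k⟩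
  obtain ⟨n, hn, en⟩ := mem_sub.1 hw
  have h1 := hn.sq
  rw [qM_V0 n hn.lt en, F.z_zero] at h1
  calc v * v = v0 * (v0⁻¹ * v * v0) * (v0⁻¹ * v) := by group
    _ = v0 * v0 * (v0⁻¹ * v * (v0⁻¹ * v)) := by rw [hv0 _ hw]; group
    _ = 1 := by rw [← ec, h1, mul_one]

theorem card_V : Nat.card F.V = 2 ^ 11 := by
  have hK : F.V ≤ F.K := F.V_le_cZ.trans F.cZ_le_K
  have h1 := GT.PG.card_sup_mul_card_inf (hK.trans F.K_le_nL)
  have h2 : Nat.card (F.V ⊔ F.L : Subgroup G) = 2 ^ 17 :=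
    (card_pre (sup_le hK F.L_le) (fun a => decide (a ∈ E4)) (fun b => Nat.beq b iU) fun g a b h => by
      rw [decide_eq_true_eq, nbeq_iff]
      refine ⟨fun hg => ?_, fun e => ?_⟩
      · obtain ⟨v, hv, l, hl, rfl⟩ := (mem_sup_iff_of_le_normalizer (hK.trans F.K_le_nL)).1 hg
        obtain ⟨a', ha', k⟩ := F.V_ic hv
        obtain ⟨rfl, rfl⟩ := h.unique (k.mul_L hl)
        exact ⟨ha', rfl⟩
      · obtain ⟨v, hv, k⟩ := F.V_lift e.1
        exact (mul_mem_cancel_left (inv_mem (mem_sup_left hv))).1 (mem_sup_right (k.div_mem (e.2 ▸ h)))).trans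
      (by decide +kernel)
  have h3 : Nat.card F.V0 = 2 ^ 9 := (F.card_sub _).trans (by decide +kernel)
  rw [h2, V_inf_L, h3, card_L] at h1
  omega

theorem cent_V : centralizer (F.V : Set G) ≤ F.V := centralizer_le F.V0_le_V

theorem Ic.mem_N {F : Fk G} (h : F.Ic g a b) : g ∈ F.N ↔ aN a 1 < 4 := by
  refine ⟨fun hg => ?_, fun e => normalizer_le_normalizer_centralizer _ (h.mem_norm_sub fun m hm e0 => ?_)⟩
  · have h1 : F.l 1 ∈ F.V ⊓ F.L := F.V_inf_L ▸ (F.lc_l (m := 1) (by decide)).mem_sub.2 rfl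
    have h2 : g * F.l 1 * g⁻¹ ∈ F.V0 :=
      F.V_inf_L ▸ ⟨(mem_normalizer_iff.1 hg _).1 h1.1, (mem_normalizer_iff.1 (F.K_le_nL h.mem) _).1 h1.2⟩
    have h3 := (h.conj_l (F.lc_l (m := 1) (by decide))).mem_sub.1 h2
    have h4 : ∀ b ∈ LG, aU b 1 ≠ 0 := by decide +kernel
    rw [show aM a b 1 = _ from aM_sp h.memA h.memB (n := 1) (u := 1) (by decide) (by decide)] at h3
    exact (sp_V0 _ (aU_lt b h.memB 1 (by decide)) _ (aN_lt _ _)).2 (h4 b h.memB) h3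
  · obtain ⟨a0, a1, a2, -⟩ := V0c m hm e0
    simp only [aM, Nat.and_xor_distrib_right, (sp_V0 _ (col_lt _ _) _ (aN_lt _ _)).1 (line a h.memA e _ a0),
      (sp_V0 _ (col_lt _ _) _ (aN_lt _ _)).1 (line a h.memA e _ a1),
      (sp_V0 _ (col_lt _ _) _ (aN_lt _ _)).1 (line a h.memA e _ a2)]
    rfl

theorem L_le_N : F.L ≤ F.N := fun _ h => (ic_id.2 h).mem_N.2 (by decide +kernel)

theorem V_le_T : F.V ≤ F.T := fun _ h =>
  let ⟨a, ha, k⟩ := F.V_ic h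
  k.mem_T.2 ⟨(E4_sq a ha).2.2.1, by decide +kernel⟩

theorem T_le_N : F.T ≤ F.N := fun _ h =>
  let ⟨_, _, k⟩ := exists_ic (F.T_le_K h)
  k.mem_N.2 ((k.mem_T.1 h).1.trans_lt (by decide))

theorem T_le_Y : F.T ≤ F.Y := le_inf F.T_le_H F.T_le_N

theorem card_KN : Nat.card ↥(F.K ⊓ F.N) = 2 ^ 21 * 63 :=
  (card_pre inf_le_left (fun a => decide (aN a 1 < 4)) (fun _ => true) fun _ _ _ h => by
    rw [mem_inf, and_iff_right h.mem, h.mem_N, decide_eq_true_eq, and_iff_left rfl]).trans (by decide +kernel)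

theorem card_KY : Nat.card ↥(F.K ⊓ F.Y) = 2 ^ 21 * 9 :=
  (card_pre inf_le_left (fun a => decide (aN a 1 < 4)) (fun b => Nat.beq (aZ b 1) 1) fun _ _ _ h => by
    rw [mem_inf, and_iff_right h.mem, Y, mem_inf, h.mem_N, h.mem_H, decide_eq_true_eq, nbeq_iff, and_comm]).trans
    (by decide +kernel)

theorem cent_L : centralizer (F.L : Set G) ≤ F.Z := fun g hg => by
  have hV : g ∈ F.V := centralizer_le (F.sub_le _) hg
  obtain ⟨a, ha, k⟩ := F.V_ic hV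
  have l : ∀ m < 4096, g * F.l m = F.l m * g := fun m hm => (hg _ (F.lc_l hm).mem).symm
  have hL := k.mem_L.2 ⟨(E4_sq a ha).2.2.2 (k.fix (F.lc_l (by decide)) (l 4 (by decide))), rfl⟩
  obtain ⟨m, hm, e⟩ := mem_sub.1 (F.V_inf_L.le ⟨hV, hL⟩)
  have c : ∀ k < 4096, cM m k = 0 := fun k hk => (hm.comm_iff (F.lc_l hk)).1 (l k hk)
  exact hm.mem_Z.2 (zero_of_cM m hm.lt e (c _ (by decide)) (c _ (by decide)) (c _ (by decide)) (c _ (by decide)))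

theorem cent_T (h : ∀ t ∈ F.T, g * t = t * g) : g = 1 ∨ g = F.s := by
  obtain ⟨c, hc, rfl⟩ := (F.memZ g).1 (F.cent_L fun t ht => (h t (F.L_le_T ht)).symm)
  have k : ∀ b ∈ LG, aU b 1 = 1 ∧ aZ b 1 = 1 → aZ b c = c := fun b hb e => by
    obtain ⟨t, ht⟩ := F.lift iN_mem hb
    exact (ht.comm_z hc).1 (h t (ht.mem_T.2 ⟨by decide +kernel, e⟩)).symm
  have h1 : ∀ c < 8, aZ 281 c = c → aZ 401 c = c → c = 0 ∨ c = 1 := by decide +kernel
  rcases h1 c hc (k _ (by decide +kernel) (by decide +kernel)) (k _ (by decide +kernel) (by decide +kernel)) with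
    rfl | rfl
  · exact .inl F.z_zero
  · exact .inr rfl

/-- An element of `C(Z)` outside `L` whose square lies in `L` has at least 64 conjugates under `L`. -/
theorem Ic.le_relIndex {F : Fk G} (h : F.Ic g a iU) (h1 : a ≠ iN) (h2 : mN a a = iN) :
    64 ≤ (centralizer {g}).relIndex F.L := by
  have h3 := ncard_L (F := F) (fun x => ∃ m, F.Lc x m ∧ aM a iU m = m) (fun m => Nat.beq (aM a iU m) m)
    fun x m hm => Iff.trans ⟨fun ⟨_, hk, e⟩ => hk.unique hm ▸ e, fun e => ⟨m, hm, e⟩⟩ (nbeq_iff _ _).symm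
  rw [cnt_inv a h.memA h1 h2] at h3
  have h4 : Nat.card (centralizer {g} ⊓ F.L : Subgroup G) ≤ 8 * 64 := by
    rw [← h3, ← SetLike.coe_sort_coe, Nat.card_coe_set_eq]
    refine Set.ncard_le_ncard (fun x hx => ⟨hx.2, ?_⟩) (Set.toFinite _)
    obtain ⟨m, hm⟩ := exists_lc hx.2
    exact ⟨m, hm, h.fix hm (mem_centralizer_singleton_iff.1 hx.1).symm⟩
  have h5 := card_mul_relIndex (inf_le_right : centralizer {g} ⊓ F.L ≤ F.L)
  rw [inf_relIndex_right, card_L] at h5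
  by_contra! h6
  nlinarith

end Fk

end Cfsg.Agent.Pn
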