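import Mathlib
import Cfsg.Agent.Pn.Vs

/-! Sizes of invariant subsets of `V` and `W`. -/

set_option autoImplicit false
set_option linter.unusedSectionVars false

namespace Cfsg.Agent.Pn

open Cfsg.Agent.Spor Cfsg.Agent.Inv.Fz Subgroup
open Cfsg.Agent.R24 (Wc Md NoOdd)

namespace Orb

/-- Codes of rank one in `l ⊗ U`. -/
def R1 : List ℕ := [1, 2, 3, 16, 17, 32, 34, 48, 51, 256, 257, 272, 273, 512, 514, 544, 546, 768, 771, 816, 819]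
/-- Codes of rank two in `l ⊗ U`. -/
def R2 : List ℕ := [18, 19, 33, 35, 49, 50, 258, 259, 274, 275, 288, 289, 290, 291, 304, 305, 306, 307, 513, 515, 528,
  529, 530, 531, 545, 547, 560, 561, 562, 563, 769, 770, 784, 785, 786, 787, 800, 801, 802, 803, 817, 818]
/-- Codes of rank one in `l ⊗ ⟨e0, e1⟩`. -/
def W1 : List ℕ := [1, 2, 3, 16, 17, 32, 34, 48, 51]
/-- Codes of rank two in `l ⊗ ⟨e0, e1⟩`. -/
def W2 : List ℕ := [18, 19, 33, 35, 49, 50]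
/-- The powers of `x0`. -/
def A3 : List ℕ := [iN, 0x6574edfca9b82130, 0x9ba85764dfec1320]
/-- All codes in `l ⊗ U`. -/
def L64 : List ℕ := 0 :: (R1 ++ R2)

theorem A3_spec : ∀ a ∈ A3, a ∈ LS ∧ aN a 1 < 4 := by decide +kernel
theorem tr1 : ∀ m ∈ R1, ∃ a ∈ A3, ∃ b ∈ LG, aM a b 1 = m := by decide +kernel
theorem tr2 : ∀ m ∈ R2, ∃ a ∈ [iN], ∃ b ∈ LG, aM a b 0x21 = m := by decide +kernel
theorem tw1 : ∀ m ∈ W1, ∃ a ∈ A3, ∃ b ∈ LG, aZ b 1 = 1 ∧ aM a b 1 = m := by decide +kernel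
theorem tw2 : ∀ m ∈ W2, ∃ a ∈ [iN], ∃ b ∈ LG, aZ b 1 = 1 ∧ aM a b 0x21 = m := by decide +kernel
theorem split_V : ∀ m < 4096, m &&& 0xCCC = 0 → m ∈ L64 := all4096 (by decide +kernel)
theorem split_W : ∀ m < 4096, m &&& 0xFCC = 0 → m = 0 ∨ m ∈ W1 ∨ m ∈ W2 := all4096 (by decide +kernel)
theorem W_le : ∀ m < 4096, m &&& 0xFCC = 0 → m &&& 0xCCC = 0 := all4096 (by decide +kernel)
theorem disj_R : 0 ∉ R1 ∧ 0 ∉ R2 ∧ ∀ m ∈ R1, m ∉ R2 := by decide +kernel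
theorem disj_W : 0 ∉ W1 ∧ 0 ∉ W2 ∧ ∀ m ∈ W1, m ∉ W2 := by decide +kernel
theorem onto : ∀ a ∈ E4, a ≠ iN → ∀ m ∈ L64, ∃ k ∈ L64, 4 * k < 4096 ∧ aM a iU (4 * k) ^^^ 4 * k = m := by
  decide +kernel
theorem trE : ∀ a ∈ E4, a ≠ iN → ∀ a' ∈ E4, a' ≠ iN → ∃ g ∈ A3, mN (mN g a) (vN g) = a' := by decide +kernel
theorem trI : ∀ m ∈ L64, m &&& 0xFCC ≠ 0 → ∀ k ∈ L64, k &&& 0xFCC ≠ 0 →
    ∃ a ∈ A3, (aM a iU m ^^^ k) &&& 0xFCC = 0 := by decide +kernel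

theorem set4 : ∀ s ∈ (Finset.range 8).powerset, (∀ c ∈ s, 1 ^^^ c ∈ s) → (∀ c ∈ s, 2 ^^^ c ∈ s) →
    ∃ a ≤ 2, s.card = 4 * a := by decide +kernel
theorem set8 : ∀ s ∈ (Finset.range 8).powerset, (∀ c ∈ s, 1 ^^^ c ∈ s) → (∀ c ∈ s, 2 ^^^ c ∈ s) →
    (∀ c ∈ s, 4 ^^^ c ∈ s) → ∃ a ≤ 1, s.card = 8 * a := by decide +kernel
theorem set7 : ∀ s ∈ (Finset.range 8).powerset, (∀ c ∈ s, aZ 94 c ∈ s) →
    s.card = 0 ∨ s.card = 1 ∨ s.card = 7 ∨ s.card = 8 := by decide +kernel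

variable {G : Type*} [Group G] [Finite G]

/-- Counting along cosets. -/
theorem count {Z : Subgroup G} {O S : Set G} {j : ℕ} (hS : ∀ g ∈ S, ∀ z ∈ Z, g * z ∈ S)
    (h : ∀ g ∈ S, {x | x ∈ O ∧ g⁻¹ * x ∈ Z}.ncard = j) : S.ncard * j = (O ∩ S).ncard * Nat.card Z := by
  classical
  rw [Set.ncard_eq_toFinset_card S, Set.ncard_eq_toFinset_card (O ∩ S)]
  refine Finset.card_mul_eq_card_mul (fun g x => g⁻¹ * x ∈ Z) (fun g hg => ?_) fun x hx => ?_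
  · rw [Set.Finite.mem_toFinset] at hg
    rw [← h g hg, ← Set.ncard_coe_finset]
    congr 1
    ext x
    simp only [Finset.mem_coe, Finset.mem_bipartiteAbove, Set.Finite.mem_toFinset, Set.mem_inter_iff,
      Set.mem_ofPred_eq]
    exact ⟨fun h => ⟨h.1.1, h.2⟩, fun h => ⟨⟨h.1, by simpa using hS g hg _ h.2⟩, h.2⟩⟩
  · rw [Set.Finite.mem_toFinset] at hx
    rw [← Set.ncard_coe_finset, ← SetLike.coe_sort_coe, Nat.card_coe_set_eq]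
    refine Set.ncard_congr (fun g _ => g⁻¹ * x) (fun g hg => ?_) (fun g g' _ _ e => by simpa using e)
      fun z hz => ⟨x * z⁻¹, ?_, by simp⟩
    · exact ((Finset.mem_bipartiteBelow _).1 hg).2
    · refine (Finset.mem_bipartiteBelow _).2 ⟨?_, by simpa using hz⟩
      rw [Set.Finite.mem_toFinset]
      exact hS x hx.2 _ (inv_mem hz)

variable {F : Fk G} {O : Set G} {g k x : G}

open Classical in
/-- The part of `O` in the coset of `g`. -/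
noncomputable def fib (F : Fk G) (O : Set G) (g : G) : Finset ℕ :=
  (Finset.range 8).filter fun c => g * F.z c ∈ O

theorem mem_fib {c : ℕ} : c ∈ fib F O g ↔ c < 8 ∧ g * F.z c ∈ O := by simp [fib]

theorem fib_pow : fib F O g ∈ (Finset.range 8).powerset :=
  Finset.mem_powerset.2 fun _ h => Finset.mem_range.2 (mem_fib.1 h).1

theorem card_fib : {x | x ∈ O ∧ g⁻¹ * x ∈ F.Z}.ncard = (fib F O g).card := by
  rw [← Set.ncard_coe_finset]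
  refine (Set.ncard_congr (fun c _ => g * F.z c) (fun c hc => ?_) (fun c d hc hd e => ?_) fun x hx => ?_).symm
  · exact ⟨(mem_fib.1 hc).2, by simpa using F.z_mem (mem_fib.1 hc).1⟩
  · exact (F.z_eq (mem_fib.1 hc).1 (mem_fib.1 hd).1).1 (mul_left_cancel e)
  · obtain ⟨c, hc, e⟩ := (F.memZ _).1 hx.2
    have : g * F.z c = x := by rw [e, mul_inv_cancel_left]
    exact ⟨c, mem_fib.2 ⟨hc, this ▸ hx.1⟩, this⟩

theorem fib_le (hk : k ∈ F.K) (h : ∀ g ∈ O, k * g * k⁻¹ ∈ O) (e : (k * g * k⁻¹)⁻¹ * x ∈ F.Z) :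
    {y | y ∈ O ∧ g⁻¹ * y ∈ F.Z}.ncard ≤ {y | y ∈ O ∧ x⁻¹ * y ∈ F.Z}.ncard :=
  Set.ncard_le_ncard_of_injOn (fun y => k * y * k⁻¹) (fun y hy => ⟨h y hy.1, by
    have := mul_mem (inv_mem e) ((mem_normalizer_iff.1 hk _).1 hy.2)
    simpa [mul_assoc] using this⟩) (fun y _ y' _ e => by simpa using e)

theorem fib_eq {P : Subgroup G} (hP : P ≤ F.K) (h : ∀ k ∈ P, ∀ g ∈ O, k * g * k⁻¹ ∈ O) (hk : k ∈ P)
    (e : (k * g * k⁻¹)⁻¹ * x ∈ F.Z) : {y | y ∈ O ∧ x⁻¹ * y ∈ F.Z}.ncard = (fib F O g).card := by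
  rw [← card_fib]
  refine le_antisymm (fib_le (hP (inv_mem hk)) (h _ (inv_mem hk)) ?_) (fib_le (hP hk) (h _ hk) e)
  have := (mem_normalizer_iff.1 (hP (inv_mem hk)) _).1 (inv_mem e)
  simpa [mul_assoc] using this

/-- The elements of `L` whose code lies in a list. -/
def SL (F : Fk G) (R : List ℕ) : Set G := {g | g ∈ F.L ∧ ∃ m ∈ R, F.Lc g m}

theorem mem_SL {R : List ℕ} {m : ℕ} (h : F.Lc g m) : g ∈ SL F R ↔ m ∈ R :=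
  ⟨fun ⟨_, _, h1, h2⟩ => h.unique h2 ▸ h1, fun h1 => ⟨h.mem, m, h1, h⟩⟩

theorem count_L {P : Subgroup G} (hP : P ≤ F.K) (h : ∀ k ∈ P, ∀ g ∈ O, k * g * k⁻¹ ∈ O) {R : List ℕ}
    {m0 n : ℕ} (h0 : m0 < 4096) (hn : cnt (inL R) = n)
    (ht : ∀ m ∈ R, ∃ k ∈ P, ∃ a b, F.Ic k a b ∧ aM a b m0 = m) :
    (O ∩ SL F R).ncard = n * (fib F O (F.l m0)).card := by
  have h1 : (SL F R).ncard = 8 * n := hn ▸ Fk.ncard_L _ _ fun g m hm =>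
    ⟨fun ⟨_, h1, h2⟩ => inL_iff.2 (hm.unique h2 ▸ h1), fun h1 => ⟨m, inL_iff.1 h1, hm⟩⟩
  have h2 := count (Z := F.Z) (O := O) (S := SL F R) (j := (fib F O (F.l m0)).card)
    (fun g ⟨_, m, h1, h2⟩ z hz => (mem_SL (h2.mul_Z hz)).2 h1) fun g ⟨_, m, h1, h2⟩ => by
      obtain ⟨k, hk, a, b, h3, rfl⟩ := ht m h1
      refine fib_eq hP h hk ?_
      have := (h3.conj_l (F.lc_l h0)).inv.mul h2
      rwa [Nat.xor_self, Fk.lc_zero] at this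
  rw [h1, F.card_Z] at h2
  linarith

theorem fib_xor (h : ∀ k ∈ F.L, ∀ g ∈ O, k * g * k⁻¹ ∈ O) {m k d : ℕ} (hm : m < 4096) (hk : k < 4096)
    (e : cM k m = d) : ∀ c ∈ fib F O (F.l m), d ^^^ c ∈ fib F O (F.l m) := fun c hc => by
  obtain ⟨h1, h2⟩ := mem_fib.1 hc
  have hd : d < 8 := e ▸ cM_lt k m
  have h3 := (F.lc_l hk).comm ((F.lc_l hm).mul_Z (F.z_mem h1))
  rw [e, mul_inv_eq_iff_eq_mul] at h3
  refine mem_fib.2 ⟨xor8 hd h1, ?_⟩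
  rw [F.z_xor d hd c h1, ← mul_assoc, F.zc m hm d hd, mul_assoc, ← h3]
  exact h _ (F.lc_l hk).mem _ h2

theorem fib1 (h : ∀ k ∈ F.L, ∀ g ∈ O, k * g * k⁻¹ ∈ O) : ∃ a ≤ 2, (fib F O (F.l 1)).card = 4 * a :=
  set4 _ fib_pow (fib_xor h (k := 0x80) (by decide) (by decide) (by decide))
    (fib_xor h (k := 0x800) (by decide) (by decide) (by decide))

theorem fib2 (h : ∀ k ∈ F.L, ∀ g ∈ O, k * g * k⁻¹ ∈ O) : ∃ a ≤ 1, (fib F O (F.l 0x21)).card = 8 * a :=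
  set8 _ fib_pow (fib_xor h (k := 0x4) (by decide) (by decide) (by decide))
    (fib_xor h (k := 0xc00) (by decide) (by decide) (by decide))
    (fib_xor h (k := 0x400) (by decide) (by decide) (by decide))

theorem ncard_three {R R' : List ℕ} (hd : 0 ∉ R ∧ 0 ∉ R' ∧ ∀ m ∈ R, m ∉ R')
    (hO : ∀ g ∈ O, ∃ m, F.Lc g m ∧ (m = 0 ∨ m ∈ R ∨ m ∈ R')) :
    O.ncard = (O ∩ F.Z).ncard + (O ∩ SL F R).ncard + (O ∩ SL F R').ncard := by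
  rw [← Set.ncard_union_eq, ← Set.ncard_union_eq]
  · congr 1
    refine Set.Subset.antisymm (fun g hg => ?_) (by simp)
    obtain ⟨m, h1, rfl | h2 | h2⟩ := hO g hg
    exacts [.inl (.inl ⟨hg, Fk.lc_zero.1 h1⟩), .inl (.inr ⟨hg, (mem_SL h1).2 h2⟩), .inr ⟨hg, (mem_SL h1).2 h2⟩]
  · refine Set.disjoint_left.2 ?_
    rintro g (h1 | h1) ⟨-, -, m, h2, h3⟩
    · exact hd.2.1 (h3.mem_Z.1 h1.2 ▸ h2)
    · exact hd.2.2 m ((mem_SL h3).1 h1.2) h2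
  · refine Set.disjoint_left.2 ?_
    rintro g h1 ⟨-, -, m, h2, h3⟩
    exact hd.1 (h3.mem_Z.1 h1.2 ▸ h2)

theorem out_ic (hu : g ∈ F.V) (hu0 : g ∉ F.V0) : ∃ a ∈ E4, a ≠ iN ∧ F.Ic g a iU := by
  obtain ⟨a, ha, h⟩ := F.V_ic hu
  exact ⟨a, ha, fun e => hu0 (F.V_inf_L ▸ ⟨hu, h.mem_L.2 ⟨e, rfl⟩⟩), h⟩

theorem lift_Y (F : Fk G) {a b : ℕ} (ha : a ∈ A3) (hb : b ∈ LG) (h1 : aZ b 1 = 1) :
    ∃ k ∈ F.K ⊓ F.Y, F.Ic k a b :=
  let ⟨k, hk⟩ := F.lift (A3_spec a ha).1 hb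
  ⟨k, ⟨hk.mem, hk.mem_H.2 h1, hk.mem_N.2 (A3_spec a ha).2⟩, hk⟩

theorem L_le_KY (F : Fk G) : F.L ≤ F.K ⊓ F.Y := le_inf F.L_le (F.L_le_T.trans F.T_le_Y)

theorem inv_V (hu : g ∈ F.V) : g⁻¹ = g := inv_eq_of_mul_eq_one_right (F.sqV g hu)

/-- `K ∩ Y` is transitive on the cosets of `Z` in `V` outside `V0`. -/
theorem transZ {u v : G} (hu : u ∈ F.V) (hu0 : u ∉ F.V0) (hv : v ∈ F.V) (hv0 : v ∉ F.V0) :
    ∃ k ∈ F.K ⊓ F.Y, (k * u * k⁻¹)⁻¹ * v ∈ F.Z := by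
  obtain ⟨a, ha, ha1, h1⟩ := out_ic hu hu0
  obtain ⟨a', ha', ha1', h2⟩ := out_ic hv hv0
  obtain ⟨b, hb, e⟩ := trE a ha ha1 a' ha' ha1'
  obtain ⟨x, hx, h3⟩ := lift_Y F hb iU_mem (by decide)
  have h4 := (h3.conj h1).of_eq e (by decide +kernel : _ = iU)
  have h5 : x * u * x⁻¹ ∈ F.V := (mem_normalizer_iff.1 hx.2.2 _).1 hu
  have h6 : (x * u * x⁻¹)⁻¹ * v ∈ F.V0 := F.V_inf_L ▸ ⟨F.V.mul_mem (F.V.inv_mem h5) hv, h4.div_mem h2⟩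
  obtain ⟨m, h7, h8⟩ := Fk.mem_sub.1 h6
  obtain ⟨k, -, hk, e'⟩ := onto a' ha' ha1' m (split_V m h7.lt h8)
  have h9 := (h4.comm_l (F.lc_l hk)).of_eq e'
  refine ⟨F.l (4 * k) * x, mul_mem (L_le_KY F (F.lc_l hk).mem) hx, ?_⟩
  have := h9.inv.mul h7
  rw [Nat.xor_self, Fk.lc_zero] at this
  have e2 := inv_V h5
  generalize hw : x * u * x⁻¹ = w at this e2
  rw [show F.l (4 * k) * x * u * (F.l (4 * k) * x)⁻¹ = F.l (4 * k) * w * (F.l (4 * k))⁻¹ by rw [← hw]; group]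
  convert this using 1
  simp only [mul_inv_rev, inv_inv, e2, mul_assoc]
  rw [← mul_assoc w w, mul_eq_one_iff_eq_inv.2 e2.symm, one_mul]

end Orb

open Orb

variable {G : Type*} [Group G] [Finite G]

namespace Fk

variable (F : Fk G) {g c : G} {a b : ℕ} {Q : Subgroup G}

theorem ncard_V {O : Set G} (hO : O ⊆ F.V) (h : ∀ k ∈ F.K ⊓ F.N, ∀ g ∈ O, k * g * k⁻¹ ∈ O) :
    ∃ a ≤ 2, ∃ b ≤ 1, ∃ j, (j = 0 ∨ j = 1 ∨ j = 7 ∨ j = 8) ∧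
      O.ncard = (O ∩ F.Z).ncard + 84 * a + 336 * b + 192 * j ∧ ((∃ g ∈ O, F.Lc g 1) → a ≠ 0) ∧
      ((∃ g ∈ O, F.Lc g 0x21) → b ≠ 0) ∧ (j = 0 → O ⊆ F.V0) := by
  have hL : ∀ k ∈ F.L, ∀ g ∈ O, k * g * k⁻¹ ∈ O := fun k hk => h k ⟨F.L_le hk, F.L_le_N hk⟩
  obtain ⟨a, ha, e1⟩ := fib1 hL
  obtain ⟨b, hb, e2⟩ := fib2 hL
  have lf : ∀ a ∈ A3, ∀ b ∈ LG, ∃ k ∈ F.K ⊓ F.N, F.Ic k a b := fun a ha b hb =>
    let ⟨k, hk⟩ := F.lift (A3_spec a ha).1 hb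
    ⟨k, ⟨hk.mem, hk.mem_N.2 (A3_spec a ha).2⟩, hk⟩
  have c1 := count_L inf_le_left h (R := R1) (m0 := 1) (n := 21) (by decide) (by decide +kernel) fun m hm => by
    obtain ⟨a, ha, b, hb, e⟩ := tr1 m hm
    obtain ⟨k, hk, h1⟩ := lf a ha b hb
    exact ⟨k, hk, a, b, h1, e⟩
  have c2 := count_L inf_le_left h (R := R2) (m0 := 0x21) (n := 42) (by decide) (by decide +kernel) fun m hm => by
    obtain ⟨a, ha, b, hb, e⟩ := tr2 m hm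
    obtain ⟨k, hk, h1⟩ := lf a (by rw [List.mem_singleton.1 ha]; decide +kernel) b hb
    exact ⟨k, hk, a, b, h1, e⟩
  obtain ⟨y0, hy0⟩ := F.lift iN_mem (by decide : 94 ∈ LG)
  obtain ⟨y, -, hy, y7⟩ := hy0.exists_odd (n := 7) (by decide) (by
    have h2 := hy0.mul hy0
    have := ((h2.mul h2).mul h2).mul hy0
    rw [show y0 * y0 * (y0 * y0) * (y0 * y0) * y0 = y0 ^ 7 by simp only [pow_succ, pow_zero, one_mul, mul_assoc]]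
      at this
    exact this.mem_L.2 (by decide +kernel))
  obtain ⟨v, hv, h1, h2⟩ := F.V_lift' (a := 0xcdef98ba67453210) hy y7 (by decide) (by decide)
  have hv0 : v ∉ F.V0 := fun h => absurd (h1.mem_L.1 (F.sub_le _ h)).1 (by decide)
  have c3 := count (Z := F.Z) (O := O) (S := F.V \ F.V0) (j := (fib F O v).card)
    (fun g hg z hz => ⟨mul_mem hg.1 (F.V0_le_V (F.Z_le_sub _ hz)),
      fun h => hg.2 ((mul_mem_cancel_right (F.Z_le_sub _ hz)).1 h)⟩) fun g hg => by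
      obtain ⟨k, hk, e⟩ := transZ hv hv0 hg.1 hg.2
      exact fib_eq inf_le_left h ⟨hk.1, hk.2.2⟩ e
  have c4 : ((F.V : Set G) \ F.V0).ncard = 1536 := by
    rw [Set.ncard_sdiff F.V0_le_V, ← Nat.card_coe_set_eq, ← Nat.card_coe_set_eq, SetLike.coe_sort_coe,
      SetLike.coe_sort_coe, F.card_V, V0, F.card_sub]
    decide +kernel
  rw [c4, F.card_Z] at c3
  have c5 := ncard_three (F := F) (O := O ∩ F.V0) disj_R fun g hg => by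
    obtain ⟨m, h1, h2⟩ := mem_sub.1 hg.2
    exact ⟨m, h1, by simpa [L64] using split_V m h1.lt h2⟩
  have sub : ∀ S : Set G, S ⊆ F.V0 → O ∩ F.V0 ∩ S = O ∩ S := fun S hS => by
    rw [Set.inter_assoc, Set.inter_eq_self_of_subset_right hS]
  have hR : ∀ m ∈ L64, m &&& 0xCCC = 0 := by decide +kernel
  rw [sub _ (F.Z_le_sub _), sub (SL F R1) fun g ⟨_, m, h1, h2⟩ => h2.mem_sub.2 (hR m (by simp [L64, h1])),
    sub (SL F R2) fun g ⟨_, m, h1, h2⟩ => h2.mem_sub.2 (hR m (by simp [L64, h1]))] at c5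
  have c6 := Set.ncard_inter_add_ncard_sdiff_eq_ncard O F.V0
  have c7 : O \ F.V0 = O ∩ (F.V \ F.V0) := Set.ext fun g =>
    ⟨fun h => ⟨h.1, hO h.1, h.2⟩, fun h => ⟨h.1, h.2.2⟩⟩
  refine ⟨a, ha, b, hb, (fib F O v).card, set7 _ fib_pow fun c hc => ?_, by rw [c7] at c6; omega,
    fun ⟨g, h1, h2⟩ => ?_, fun ⟨g, h1, h2⟩ => ?_, fun e g hg => ?_⟩
  · obtain ⟨h3, h4⟩ := mem_fib.1 hc
    refine mem_fib.2 ⟨aZ_lt _ (by decide) _ h3, ?_⟩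
    rw [← hy.conj_z h3, ← mul_assoc, ← mul_assoc, ← h2, mul_assoc y]
    exact h y ⟨hy.mem, hy.mem_N.2 (by decide)⟩ _ h4
  · have := Set.ncard_ne_zero_of_mem (s := O ∩ SL F R1) ⟨h1, (mem_SL h2).2 (by decide)⟩
    omega
  · have := Set.ncard_ne_zero_of_mem (s := O ∩ SL F R2) ⟨h1, (mem_SL h2).2 (by decide)⟩
    omega
  · by_contra h1
    have := Set.ncard_ne_zero_of_mem (s := O ∩ (F.V \ F.V0)) ⟨hg, hO hg, h1⟩
    omega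

theorem ncard_W {O : Set G} (hO : O ⊆ F.W) (h : ∀ k ∈ F.K ⊓ F.Y, ∀ g ∈ O, k * g * k⁻¹ ∈ O) :
    ∃ a ≤ 2, ∃ b ≤ 1, O.ncard = (O ∩ F.Z).ncard + 36 * a + 48 * b ∧ (a ≠ 0 → ∃ g ∈ O, F.Lc g 1) ∧
      (b ≠ 0 → ∃ g ∈ O, F.Lc g 0x21) := by
  have hL : ∀ k ∈ F.L, ∀ g ∈ O, k * g * k⁻¹ ∈ O := fun k hk => h k (L_le_KY F hk)
  obtain ⟨a, ha, e1⟩ := fib1 hL
  obtain ⟨b, hb, e2⟩ := fib2 hL
  have c1 := count_L inf_le_left h (R := W1) (m0 := 1) (n := 9) (by decide) (by decide +kernel) fun m hm => by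
    obtain ⟨a, ha, b, hb, e', e⟩ := tw1 m hm
    obtain ⟨k, hk, h1⟩ := lift_Y F ha hb e'
    exact ⟨k, hk, a, b, h1, e⟩
  have c2 := count_L inf_le_left h (R := W2) (m0 := 0x21) (n := 6) (by decide) (by decide +kernel) fun m hm => by
    obtain ⟨a, ha, b, hb, e', e⟩ := tw2 m hm
    obtain ⟨k, hk, h1⟩ := lift_Y F (a := a) (by rw [List.mem_singleton.1 ha]; decide +kernel) hb e'
    exact ⟨k, hk, a, b, h1, e⟩
  have c5 := ncard_three (F := F) (O := O) disj_W fun g hg => by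
    obtain ⟨m, h1, h2⟩ := mem_sub.1 (hO hg)
    exact ⟨m, h1, split_W m h1.lt h2⟩
  have ex : ∀ m < 4096, (fib F O (F.l m)).card ≠ 0 → ∃ g ∈ O, F.Lc g m := fun m hm h => by
    obtain ⟨c, hc⟩ := Finset.card_ne_zero.1 h
    exact ⟨_, (mem_fib.1 hc).2, hm, c, (mem_fib.1 hc).1, rfl⟩
  exact ⟨a, ha, b, hb, by omega, fun h => ex 1 (by decide) (by omega), fun h => ex _ (by decide) (by omega)⟩

/-- `K ∩ Y` is transitive on the cosets of `W` in `V` outside `V0`. -/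
theorem trans_out {u v : G} (hu : u ∈ F.V) (hu0 : u ∉ F.V0) (hv : v ∈ F.V) (hv0 : v ∉ F.V0) :
    ∃ k ∈ F.K ⊓ F.Y, k * u * k⁻¹ * v⁻¹ ∈ F.W := by
  obtain ⟨k, hk, e⟩ := transZ hu hu0 hv hv0
  rw [inv_V ((mem_normalizer_iff.1 hk.2.2 _).1 hu), ← inv_V hv] at e
  exact ⟨k, hk, F.Z_le_sub _ e⟩

/-- `K ∩ Y` is transitive on the non-trivial cosets of `W` in `V0`. -/
theorem trans_in {u v : G} (hu : u ∈ F.V0) (hu0 : u ∉ F.W) (hv : v ∈ F.V0) (hv0 : v ∉ F.W) :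
    ∃ k ∈ F.K ⊓ F.Y, k * u * k⁻¹ * v⁻¹ ∈ F.W := by
  obtain ⟨m, h1, h2⟩ := mem_sub.1 hu
  obtain ⟨n, h3, h4⟩ := mem_sub.1 hv
  obtain ⟨a, ha, e⟩ := trI m (split_V m h1.lt h2) (mt h1.mem_sub.2 hu0) n (split_V n h3.lt h4)
    (mt h3.mem_sub.2 hv0)
  obtain ⟨k, hk, h5⟩ := lift_Y F ha iU_mem (by decide)
  exact ⟨k, hk, ((h5.conj_l h1).mul h3.inv).mem_sub.2 e⟩

end Fk

end Cfsg.Agent.Pn
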