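import Mathlib
import Cfsg.Agent.Pn.Vs

/-! The elementary abelian subgroups of order `2 ^ 11` of `K`. -/

set_option autoImplicit false
set_option linter.unusedSectionVars false

namespace Cfsg.Agent.Pn

open Cfsg.Agent.Spor Cfsg.Agent.Inv.Fz Subgroup
open Cfsg.Agent.R24 (Wc Md NoOdd)

namespace Syl

/-- The involutions of `A5`. -/
def I15 : List ℕ := [0x1e4bc396782da5f0, 0x28d7b14ec6395fa0, 0x369c72d8be14fa50, 0x43dabc25168fe970,
  0x6ea25d917fb34c80, 0x7a1c3e58f294b6d0, 0x8e35249f71cadb60, 0x95d1b7f3a6e284c0, 0xb25cf6183ad47e90,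
  0xcdef98ba67453210, 0xdcfeab8945673210, 0xefcd89ab54763210, 0xf1864a3d2c5b97e0, 0xf4291ac7835e6db0,
  0xfb73ea62d951c840]
/-- The transpositions of `S5`. -/
def I10 : List ℕ := [0x27d8639ceb14af50, 0x52bcda3416f89e70, 0x57468a9becfd3120, 0x7564b9a8fdec3120,
  0x89badcef76452310, 0xab98efdc67542310, 0xae62bf739d518c40, 0xdefc56749ab81230, 0xf92435e871acbd60,
  0xfcde65478ba91230]
/-- The involutions of `L3(2)`. -/
def I21 : List ℕ := [84, 124, 161, 167, 214, 233, 266, 275, 277, 279, 281, 302, 305, 309, 313, 337, 345, 401, 403,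
  458, 465]

theorem invN : ∀ a ∈ LS, mN a a = iN → a = iN ∨ a ∈ I15 ++ I10 := by decide +kernel
theorem invU : ∀ b ∈ LG, mU b b = iU → b = iU ∨ b ∈ I21 := by decide +kernel
theorem triN : ∀ a ∈ I15 ++ I10, ∀ b ∈ I15 ++ I10, mN a b = mN b a → a ≠ b → ∀ c ∈ I15 ++ I10,
    mN a c = mN c a → mN b c = mN c b → c = a ∨ c = b ∨ c = mN a b := by decide +kernel
theorem triU : ∀ a ∈ I21, ∀ b ∈ I21, mU a b = mU b a → a ≠ b → ∀ c ∈ I21,
    mU a c = mU c a → mU b c = mU c b → c = a ∨ c = b ∨ c = mU a b := by decide +kernel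
theorem outer : ∀ a ∈ I10, ∀ b ∈ I10, mN a b = mN b a → a ≠ b → mN a b ∈ I15 := by decide +kernel
theorem conjN : ∀ a ∈ I15, ∃ g ∈ LS, mN (mN g a) (vN g) = 0xcdef98ba67453210 := by decide +kernel
theorem conjU : ∀ b ∈ I21, ∃ g ∈ LG, mU (mU g b) (vU g) = 337 := by decide +kernel
theorem conj1 : ∀ g ∈ LG, mU (mU g iU) (vU g) = iU := by decide +kernel
theorem fixN : ∀ m < 4096, aM 0xcdef98ba67453210 iU m = m → m &&& 0xCCC = 0 := all4096 (by decide +kernel)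
theorem fixU : ∀ m < 4096, aM iN 337 m = m → nb m 2 = 0 := all4096 (by decide +kernel)
theorem sub2 : ∀ m < 4096, m &&& 0xF00 = 0 ↔ nb m 2 = 0 := all4096 (by decide +kernel)
theorem sub1 : ∀ m < 4096, m &&& 0x0F0 = 0 ↔ nb m 1 = 0 := all4096 (by decide +kernel)
theorem sub0 : ∀ m < 4096, nb m 2 = 0 → nb m 1 = 0 → nb m 0 = 0 → m = 0 := all4096 (by decide +kernel)
theorem line : ∀ a ∈ LS, (∀ e ∈ E4, aN (mN (mN a e) (vN a)) 1 = 1) → aN a 1 < 4 := by decide +kernel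
theorem bt_zero : ∀ n < 16, bt n 0 = 0 := by decide
theorem cM_zero : ∀ a < 2, ∀ b < 2, ∀ c < 2, ∀ d < 2, ∀ e < 2, ∀ f < 2,
    (a ^^^ b) + 2 * (c ^^^ d) + 4 * (e ^^^ f) = 0 → a = b ∧ c = d ∧ e = f :=
  fun _ _ _ _ _ _ _ _ _ _ _ _ h => ⟨eq_of_xor (by omega), eq_of_xor (by omega), eq_of_xor (by omega)⟩

/-- Elementary abelian sets of codes have at most four elements. -/
theorem four {S : Finset ℕ} {I : List ℕ} {m : ℕ → ℕ → ℕ} {e : ℕ} (h1 : ∀ a ∈ S, a = e ∨ a ∈ I)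
    (h2 : ∀ a ∈ S, ∀ b ∈ S, m a b = m b a)
    (h3 : ∀ a ∈ I, ∀ b ∈ I, m a b = m b a → a ≠ b → ∀ c ∈ I, m a c = m c a → m b c = m c b →
      c = a ∨ c = b ∨ c = m a b) : S.card ≤ 4 := by
  by_contra! h
  obtain ⟨a, ha, ka⟩ := Finset.exists_mem_notMem_of_card_lt_card (s := {e}) (t := S) (by simp; omega)
  obtain ⟨b, hb, kb⟩ := Finset.exists_mem_notMem_of_card_lt_card (s := {e, a}) (t := S)
    (Finset.card_le_two.trans_lt (by omega))
  obtain ⟨c, hc, kc⟩ := Finset.exists_mem_notMem_of_card_lt_card (s := {e, a, b, m a b}) (t := S)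
    (Finset.card_le_four.trans_lt h)
  simp only [Finset.mem_insert, Finset.mem_singleton, not_or] at ka kb kc
  rcases h3 a ((h1 a ha).resolve_left ka) b ((h1 b hb).resolve_left kb.1) (h2 a ha b hb) (Ne.symm kb.2)
    c ((h1 c hc).resolve_left kc.1) (h2 a ha c hc) (h2 b hb c hc) with h | h | h
  exacts [kc.2.1 h, kc.2.2.1 h, kc.2.2.2 h]

/-- The character `(-1) ^ bt p n`. -/
def χ (p n : ℕ) : ℤ := 1 - 2 * (bt p n : ℤ)

theorem χ_xor : ∀ p < 16, ∀ q < 16, ∀ n < 16, χ (p ^^^ q) n = χ p n * χ q n := by decide +kernel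
theorem χ_sum : ∀ p < 16, ∑ n ∈ Finset.range 16, χ p n = if p = 0 then 16 else 0 := by decide +kernel

/-- Orthogonal subgroups of `N`. -/
theorem orth {P Q : Finset ℕ} (hP : ∀ p ∈ P, p < 16) (hQ : ∀ q ∈ Q, q < 16)
    (hx : ∀ p ∈ P, ∀ q ∈ P, p ^^^ q ∈ P) (h : ∀ p ∈ P, ∀ q ∈ Q, bt p q = 0) : P.card * Q.card ≤ 16 := by
  have h1 : ∀ n, (∀ p ∈ P, bt p n = 0) → ∑ p ∈ P, χ p n = P.card := fun n hn => by
    rw [Finset.sum_congr rfl fun p hp => show χ p n = 1 by simp [χ, hn p hp]]; simp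
  have h2 : ∀ n ∈ Finset.range 16, 0 ≤ ∑ p ∈ P, χ p n := fun n hn => by
    by_cases k : ∀ p ∈ P, bt p n = 0
    · rw [h1 n k]; positivity
    push Not at k
    obtain ⟨q, hq, k⟩ := k
    have e1 : χ q n = -1 := by have := bt_lt q n; simp [χ, show bt q n = 1 by omega]
    have e2 : ∑ p ∈ P, χ (q ^^^ p) n = ∑ p ∈ P, χ p n :=
      Finset.sum_nbij' (q ^^^ ·) (q ^^^ ·) (hx q hq) (hx q hq) (fun p _ => Nat.xor_xor_cancel_left q p)
        (fun p _ => Nat.xor_xor_cancel_left q p) fun _ _ => rfl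
    rw [Finset.sum_congr rfl fun p hp => χ_xor q (hP q hq) p (hP p hp) n (Finset.mem_range.1 hn),
      ← Finset.mul_sum, e1] at e2
    linarith
  have h3 : ∑ n ∈ Q, ∑ p ∈ P, χ p n ≤ ∑ n ∈ Finset.range 16, ∑ p ∈ P, χ p n :=
    Finset.sum_le_sum_of_subset_of_nonneg (fun q hq => Finset.mem_range.2 (hQ q hq)) fun n hn _ => h2 n hn
  rw [Finset.sum_congr rfl fun q hq => h1 q fun p hp => h p hp q hq, Finset.sum_comm,
    Finset.sum_congr rfl fun p hp => χ_sum p (hP p hp), Finset.sum_ite_eq', Finset.sum_const, nsmul_eq_mul] at h3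
  have : ((Q.card : ℤ) * P.card) ≤ 16 := h3.trans (by split_ifs <;> norm_num)
  rw [mul_comm]
  exact_mod_cast this

variable {G : Type*} [Group G] [Finite G]

/-- Counting along the fibres of a map. -/
theorem card_le_mul {X : Type*} {B D : Subgroup G} (f : G → X) (S : Finset X) (hS : ∀ x ∈ B, f x ∈ S)
    (h : ∀ x ∈ B, ∀ y ∈ B, f x = f y → x⁻¹ * y ∈ D) : Nat.card B ≤ Nat.card (B ⊓ D : Subgroup G) * S.card := by
  classical
  have := Fintype.ofFinite B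
  rw [Nat.card_eq_fintype_card, ← Finset.card_univ]
  refine Finset.card_le_mul_card_image_of_maps_to (f := fun x : B => f x) (fun x _ => hS x x.2) _ fun s _ => ?_
  rcases (Finset.univ.filter fun x : B => f x = s).eq_empty_or_nonempty with e | ⟨x, hx⟩
  · simp [e]
  rw [← Nat.card_eq_finsetCard]
  exact Nat.card_le_card_of_injective (fun y => (⟨(x⁻¹ * y.1 : B), (x⁻¹ * y.1).2, h _ x.2 _ y.1.2
    ((Finset.mem_filter.1 hx).2.trans (Finset.mem_filter.1 y.2).2.symm)⟩ : (B ⊓ D : Subgroup G)))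
    fun y y' e => Subtype.ext (Subtype.ext (by simpa using congrArg Subtype.val e))

variable {F : Fk G} {B D : Subgroup G} {g : G}

open Classical in
/-- The components at `e i` of the codes of the elements of `D`. -/
noncomputable def J (F : Fk G) (D : Subgroup G) (i : ℕ) : Finset ℕ :=
  (Finset.range 16).filter fun n => ∃ g ∈ D, ∃ m, F.Lc g m ∧ nb m i = n

theorem mem_J {i n : ℕ} : n ∈ J F D i ↔ ∃ g ∈ D, ∃ m, F.Lc g m ∧ nb m i = n := by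
  simp only [J, Finset.mem_filter, Finset.mem_range, and_iff_right_iff_imp]
  rintro ⟨_, _, m, _, rfl⟩
  exact nb_lt m i

theorem J_lt {i : ℕ} : ∀ n ∈ J F D i, n < 16 := fun _ h =>
  let ⟨_, _, m, _, e⟩ := mem_J.1 h
  e ▸ nb_lt m i

theorem J_xor {i : ℕ} : ∀ p ∈ J F D i, ∀ q ∈ J F D i, p ^^^ q ∈ J F D i := fun p hp q hq => by
  obtain ⟨g, hg, m, h1, rfl⟩ := mem_J.1 hp
  obtain ⟨h, hh, k, h2, rfl⟩ := mem_J.1 hq
  exact mem_J.2 ⟨_, mul_mem hg hh, _, h1.mul h2, nb_xor ..⟩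

theorem card_J (hD : D ≤ F.L) (i : ℕ) {E : Subgroup G} (h : ∀ g ∈ D, ∀ m, F.Lc g m → nb m i = 0 → g ∈ E) :
    Nat.card D ≤ Nat.card (D ⊓ E : Subgroup G) * (J F D i).card := by
  classical
  choose cd hcd using fun g (hg : g ∈ F.L) => Fk.exists_lc hg
  refine card_le_mul (fun g => if hg : g ∈ F.L then nb (cd g hg) i else 0) _ (fun x hx => ?_) fun x hx y hy e => ?_
  · rw [dif_pos (hD hx)]
    exact mem_J.2 ⟨x, hx, _, hcd x _, rfl⟩
  · rw [dif_pos (hD hx), dif_pos (hD hy)] at e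
    exact h _ (mul_mem (inv_mem hx) hy) _ ((hcd x (hD hx)).inv.mul (hcd y (hD hy))) (by
      rw [nb_xor, e, Nat.xor_self])

/-- Abelian subgroups of `L`. -/
theorem abel (hD : D ≤ F.L) (hc : ∀ x ∈ D, ∀ y ∈ D, x * y = y * x) :
    Nat.card D ≤ Nat.card (D ⊓ F.Z : Subgroup G) * 64 ∧
      ((∀ g ∈ D, ∀ m, F.Lc g m → nb m 2 = 0) → Nat.card D ≤ Nat.card (D ⊓ F.Z : Subgroup G) * 16) := by
  have c2 := card_J hD 2 (E := F.sub 0xF00) fun g _ m h1 h2 => h1.mem_sub.2 ((sub2 m h1.lt).2 h2)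
  have c1 := card_J (D := D ⊓ F.sub 0xF00) (inf_le_left.trans hD) 1 (E := F.sub 0x0F0)
    fun g _ m h1 h2 => h1.mem_sub.2 ((sub1 m h1.lt).2 h2)
  have c0 := card_J (D := D ⊓ F.sub 0xF00 ⊓ F.sub 0x0F0) ((inf_le_left.trans inf_le_left).trans hD) 0
    (E := F.Z) fun g hg m h1 h2 => h1.mem_Z.2 (sub0 m h1.lt ((sub2 m h1.lt).1 (h1.mem_sub.1 hg.1.2))
      ((sub1 m h1.lt).1 (h1.mem_sub.1 hg.2)) h2)
  have cz : Nat.card (D ⊓ F.sub 0xF00 ⊓ F.sub 0x0F0 ⊓ F.Z : Subgroup G) ≤ Nat.card (D ⊓ F.Z : Subgroup G) :=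
    card_le_of_le (inf_le_inf_right _ (inf_le_left.trans inf_le_left))
  have key : ∀ x ∈ D, ∀ y ∈ D, ∀ m k, F.Lc x m → F.Lc y k → bt (nb m 0) (nb k 1) = bt (nb m 1) (nb k 0) ∧
      bt (nb m 0) (nb k 2) = bt (nb m 2) (nb k 0) ∧ bt (nb m 1) (nb k 2) = bt (nb m 2) (nb k 1) :=
    fun x hx y hy m k h1 h2 => cM_zero _ (bt_lt ..) _ (bt_lt ..) _ (bt_lt ..) _ (bt_lt ..) _ (bt_lt ..) _ (bt_lt ..)
      ((h1.comm_iff h2).1 (hc x hx y hy))
  have o21 : (J F D 2).card * (J F (D ⊓ F.sub 0xF00) 1).card ≤ 16 := orth J_lt J_lt J_xor fun p hp q hq => by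
    obtain ⟨g, hg, m, h1, rfl⟩ := mem_J.1 hp
    obtain ⟨h, hh, k, h2, rfl⟩ := mem_J.1 hq
    rw [← (key g hg h hh.1 m k h1 h2).2.2, (sub2 k h2.lt).1 (h2.mem_sub.1 hh.2), bt_zero _ (nb_lt ..)]
  have o20 : (J F D 2).card * (J F (D ⊓ F.sub 0xF00 ⊓ F.sub 0x0F0) 0).card ≤ 16 :=
    orth J_lt J_lt J_xor fun p hp q hq => by
      obtain ⟨g, hg, m, h1, rfl⟩ := mem_J.1 hp
      obtain ⟨h, hh, k, h2, rfl⟩ := mem_J.1 hq
      rw [← (key g hg h hh.1.1 m k h1 h2).2.1, (sub2 k h2.lt).1 (h2.mem_sub.1 hh.1.2), bt_zero _ (nb_lt ..)]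
  have o10 : (J F (D ⊓ F.sub 0xF00) 1).card * (J F (D ⊓ F.sub 0xF00 ⊓ F.sub 0x0F0) 0).card ≤ 16 :=
    orth J_lt J_lt J_xor fun p hp q hq => by
      obtain ⟨g, hg, m, h1, rfl⟩ := mem_J.1 hp
      obtain ⟨h, hh, k, h2, rfl⟩ := mem_J.1 hq
      rw [← (key g hg.1 h hh.1.1 m k h1 h2).1, (sub1 k h2.lt).1 (h2.mem_sub.1 hh.2), bt_zero _ (nb_lt ..)]
  have j2 : (∀ g ∈ D, ∀ m, F.Lc g m → nb m 2 = 0) → (J F D 2).card ≤ 1 := fun h =>
    Finset.card_le_one.2 fun p hp q hq => by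
      obtain ⟨g, hg, m, h1, rfl⟩ := mem_J.1 hp
      obtain ⟨g', hg', k, h2, rfl⟩ := mem_J.1 hq
      rw [h g hg m h1, h g' hg' k h2]
  generalize (J F D 2).card = a at *
  generalize (J F (D ⊓ F.sub 0xF00) 1).card = b at *
  generalize (J F (D ⊓ F.sub 0xF00 ⊓ F.sub 0x0F0) 0).card = c at *
  have tot : Nat.card D ≤ Nat.card (D ⊓ F.Z : Subgroup G) * (c * b * a) :=
    calc Nat.card D ≤ _ := c2
      _ ≤ _ := Nat.mul_le_mul_right _ c1
      _ ≤ _ := Nat.mul_le_mul_right _ (Nat.mul_le_mul_right _ (c0.trans (Nat.mul_le_mul_right _ cz)))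
      _ = _ := by ring
  refine ⟨tot.trans (Nat.mul_le_mul_left _ (Nat.mul_self_le_mul_self_iff.1 ?_)),
    fun h => tot.trans (Nat.mul_le_mul_left _ ?_)⟩
  · calc c * b * a * (c * b * a) = a * b * (a * c) * (b * c) := by ring
      _ ≤ 16 * 16 * 16 := Nat.mul_le_mul (Nat.mul_le_mul o21 o20) o10
  · calc c * b * a ≤ c * b * 1 := Nat.mul_le_mul_left _ (j2 h)
      _ ≤ 16 := by rw [mul_one, mul_comm]; exact o10

theorem comm_of_sq (h2 : ∀ x ∈ B, x * x = 1) : ∀ x ∈ B, ∀ y ∈ B, x * y = y * x := fun x hx y hy => by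
  rw [← inv_eq_of_mul_eq_one_right (h2 _ (mul_mem hx hy)), mul_inv_rev, inv_eq_of_mul_eq_one_right (h2 x hx),
    inv_eq_of_mul_eq_one_right (h2 y hy)]

open Classical in
/-- The image in `S5`. -/
noncomputable def SA (F : Fk G) (B : Subgroup G) : Finset ℕ := LS.toFinset.filter fun a => ∃ g ∈ B, F.A g = a

open Classical in
/-- The image in `L3(2)`. -/
noncomputable def SB (F : Fk G) (B : Subgroup G) : Finset ℕ := LG.toFinset.filter fun b => ∃ g ∈ B, F.B g = b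

theorem ic (hg : g ∈ F.K) : F.Ic g (F.A g) (F.B g) := ⟨hg, rfl, rfl⟩

theorem sq_ic {a b : ℕ} (h : F.Ic g a b) (e : g * g = 1) : mN a a = iN ∧ mU b b = iU :=
  (h.mul h).mem_L.1 (e ▸ one_mem _)

theorem SA_mem (hB : B ≤ F.K) (hg : g ∈ B) : F.A g ∈ SA F B := by
  classical exact Finset.mem_filter.2 ⟨List.mem_toFinset.2 (ic (hB hg)).memA, g, hg, rfl⟩

theorem SB_mem (hB : B ≤ F.K) (hg : g ∈ B) : F.B g ∈ SB F B := by
  classical exact Finset.mem_filter.2 ⟨List.mem_toFinset.2 (ic (hB hg)).memB, g, hg, rfl⟩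

theorem SA_inv (hB : B ≤ F.K) (h2 : ∀ x ∈ B, x * x = 1) : ∀ a ∈ SA F B, a = iN ∨ a ∈ I15 ++ I10 := by
  classical
  intro a ha
  obtain ⟨-, g, hg, rfl⟩ := Finset.mem_filter.1 ha
  exact invN _ (ic (hB hg)).memA (sq_ic (ic (hB hg)) (h2 g hg)).1

theorem ic_comm (hB : B ≤ F.K) (h2 : ∀ x ∈ B, x * x = 1) {x y : G} (hx : x ∈ B) (hy : y ∈ B) :
    mN (F.A x) (F.A y) = mN (F.A y) (F.A x) ∧ mU (F.B x) (F.B y) = mU (F.B y) (F.B x) :=
  ((ic (hB hx)).mul (ic (hB hy))).unique (comm_of_sq h2 x hx y hy ▸ (ic (hB hy)).mul (ic (hB hx)))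

theorem SA_card (hB : B ≤ F.K) (h2 : ∀ x ∈ B, x * x = 1) : (SA F B).card ≤ 4 := by
  classical
  refine four (SA_inv hB h2) (fun a ha b hb => ?_) triN
  obtain ⟨-, x, hx, rfl⟩ := Finset.mem_filter.1 ha
  obtain ⟨-, y, hy, rfl⟩ := Finset.mem_filter.1 hb
  exact (ic_comm hB h2 hx hy).1

theorem SB_card (hB : B ≤ F.K) (h2 : ∀ x ∈ B, x * x = 1) : (SB F B).card ≤ 4 := by
  classical
  refine four (e := iU) (fun a ha => ?_) (fun a ha b hb => ?_) triU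
  · obtain ⟨-, g, hg, rfl⟩ := Finset.mem_filter.1 ha
    exact invU _ (ic (hB hg)).memB (sq_ic (ic (hB hg)) (h2 g hg)).2
  · obtain ⟨-, x, hx, rfl⟩ := Finset.mem_filter.1 ha
    obtain ⟨-, y, hy, rfl⟩ := Finset.mem_filter.1 hb
    exact (ic_comm hB h2 hx hy).2

theorem card_A (hB : B ≤ F.K) (hno : ∀ g ∈ B, ∀ t, F.Ic g iN t → t = iU) :
    Nat.card B ≤ Nat.card (B ⊓ F.L : Subgroup G) * (SA F B).card :=
  card_le_mul F.A _ (fun _ => SA_mem hB) fun x hx y hy e => by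
    have h1 := (ic (hB hx)).inv.mul (ic (hB hy))
    rw [← e, (vN_spec _ (ic (hB hx)).memA).2.2.1] at h1
    exact h1.mem_L.2 ⟨rfl, hno _ (mul_mem (inv_mem hx) hy) _ h1⟩

theorem card_Z4 (h : ¬ F.Z ≤ B) : Nat.card (B ⊓ F.L ⊓ F.Z : Subgroup G) ≤ 4 := by
  have h1 := card_dvd_of_le (inf_le_right : B ⊓ F.L ⊓ F.Z ≤ F.Z)
  have h2 : Nat.card (B ⊓ F.L ⊓ F.Z : Subgroup G) ≠ 8 := fun e =>
    h ((eq_of_le_of_card_ge inf_le_right (by rw [e, F.card_Z])).ge.trans (inf_le_left.trans inf_le_left))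
  rw [F.card_Z] at h1
  have := Nat.le_of_dvd (by norm_num) h1
  generalize Nat.card (B ⊓ F.L ⊓ F.Z : Subgroup G) = n at *
  interval_cases n <;> omega

theorem cZ (h2 : ∀ x ∈ B, x * x = 1) (h : F.Z ≤ B) {a b : ℕ} (hg : g ∈ B) (h1 : F.Ic g a b) : b = iU :=
  h1.mem_cZ.1 (mem_centralizer_iff.2 fun z hz => comm_of_sq h2 z (h hz) g hg)

theorem no337 (hB : B ≤ F.K) (h2 : ∀ x ∈ B, x * x = 1) (hg : g ∈ B) (h1 : F.Ic g iN 337) :
    Nat.card B ≤ 1024 := by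
  have c1 := card_le_mul (B := B) (D := F.L) (fun g => (F.A g, F.B g)) (SA F B ×ˢ SB F B)
    (fun x hx => by rw [Finset.mem_product]; exact ⟨SA_mem hB hx, SB_mem hB hx⟩) fun x hx y hy e =>
      (ic (hB hx)).div_mem ((ic (hB hy)).of_eq (congrArg Prod.fst e).symm (congrArg Prod.snd e).symm)
  have c2 := (abel (D := B ⊓ F.L) inf_le_right fun x hx y hy => comm_of_sq h2 x hx.1 y hy.1).2
    fun x hx m hm => fixU m hm.lt (h1.fix hm (comm_of_sq h2 g hg x hx.1))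
  have c3 := card_Z4 (F := F) (B := B) fun h => absurd (cZ h2 h hg h1) (by decide)
  rw [Finset.card_product] at c1
  exact (c1.trans (Nat.mul_le_mul (c2.trans (Nat.mul_le_mul_right _ c3))
    (Nat.mul_le_mul (SA_card hB h2) (SB_card hB h2)))).trans (by norm_num)

theorem eq_of_E (hB : B ≤ F.K) (h2 : ∀ x ∈ B, x * x = 1) (hc : 2 ^ 11 ≤ Nat.card B)
    (hno : ∀ g ∈ B, ∀ t, F.Ic g iN t → t = iU) (hg : g ∈ B) (h1 : F.Ic g 0xcdef98ba67453210 iU) : B = F.V := by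
  have c1 := (card_A hB hno).trans (Nat.mul_le_mul_left _ (SA_card hB h2))
  have h3 : B ⊓ F.L ≤ F.V0 := fun x hx => by
    obtain ⟨m, hm⟩ := Fk.exists_lc hx.2
    exact hm.mem_sub.2 (fixN m hm.lt (h1.fix hm (comm_of_sq h2 g hg x hx.1)))
  have c2 : Nat.card F.V0 = 512 := (F.card_sub _).trans (by decide +kernel)
  have h4 := eq_of_le_of_card_ge h3 (by omega)
  refine eq_of_le_of_card_ge (fun x hx => mem_centralizer_iff.2 fun y hy => ?_) (F.card_V ▸ hc)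
  exact comm_of_sq h2 y (h4.ge hy).1 x hx

theorem cj_le {k : G} (hB : B ≤ F.K) (hk : k ∈ F.K) : cj k B ≤ F.K :=
  cj_le_iff.2 fun _ hx => mul_mem (mul_mem hk (hB hx)) (inv_mem hk)

theorem cj_sq {k : G} (h2 : ∀ x ∈ B, x * x = 1) : ∀ x ∈ cj k B, x * x = 1 := fun x hx => by
  have := h2 _ (mem_cj.1 hx)
  rwa [show k⁻¹ * x * k * (k⁻¹ * x * k) = k⁻¹ * (x * x) * k⁻¹⁻¹ by group, conj_eq_one_iff] at this

end Syl

open Syl

variable {G : Type*} [Group G] [Finite G]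

namespace Fk

variable (F : Fk G) {g c : G} {a b : ℕ} {Q : Subgroup G}

theorem eq_cj_V {B : Subgroup G} (hB : B ≤ F.K) (h2 : ∀ x ∈ B, x * x = 1) (hc : 2 ^ 11 ≤ Nat.card B) :
    ∃ k ∈ F.K, B = cj k F.V := by
  classical
  have hno : ∀ g ∈ B, ∀ t, F.Ic g iN t → t = iU := fun g hg t h1 => by
    refine (invU t h1.memB (sq_ic h1 (h2 g hg)).2).resolve_right fun ht => ?_
    obtain ⟨b, hb, e⟩ := conjU t ht
    obtain ⟨k, hk⟩ := F.lift iN_mem hb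
    have := no337 (cj_le hB hk.mem) (cj_sq h2) (conj_mem_cj.2 hg)
      ((hk.conj h1).of_eq (by decide +kernel) e)
    rw [card_cj] at this
    omega
  have c1 := card_A hB hno
  have c2 := (abel (D := B ⊓ F.L) inf_le_right fun x hx y hy => comm_of_sq h2 x hx.1 y hy.1).1
  have c3 := SA_card hB h2
  have hZ : F.Z ≤ B := by
    by_contra h
    have := c1.trans (Nat.mul_le_mul (c2.trans (Nat.mul_le_mul_right _ (card_Z4 h))) c3)
    omega
  have c4 : Nat.card (B ⊓ F.L ⊓ F.Z : Subgroup G) ≤ 8 := F.card_Z ▸ card_le_of_le inf_le_right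
  have c5 : 2 < (SA F B).card := by
    by_contra! h
    have := c1.trans (Nat.mul_le_mul (c2.trans (Nat.mul_le_mul_right _ c4)) h)
    omega
  obtain ⟨g, hg, h1⟩ : ∃ g ∈ B, F.A g ∈ I15 := by
    obtain ⟨a, ha, ka⟩ := Finset.exists_mem_notMem_of_card_lt_card (s := {iN}) (t := SA F B) (by simp; omega)
    obtain ⟨b, hb, kb⟩ := Finset.exists_mem_notMem_of_card_lt_card (s := {iN, a}) (t := SA F B)
      (Finset.card_le_two.trans_lt c5)
    simp only [Finset.mem_insert, Finset.mem_singleton, not_or] at ka kb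
    have h3 := List.mem_append.1 ((SA_inv hB h2 a ha).resolve_left ka)
    have h4 := List.mem_append.1 ((SA_inv hB h2 b hb).resolve_left kb.1)
    obtain ⟨-, x, hx, rfl⟩ := Finset.mem_filter.1 ha
    obtain ⟨-, y, hy, rfl⟩ := Finset.mem_filter.1 hb
    rcases h3 with h3 | h3
    · exact ⟨x, hx, h3⟩
    rcases h4 with h4 | h4
    · exact ⟨y, hy, h4⟩
    exact ⟨x * y, mul_mem hx hy, F.A_mul x (hB hx) y (hB hy) ▸
      outer _ h3 _ h4 (ic_comm hB h2 hx hy).1 (Ne.symm kb.2)⟩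
  obtain ⟨a, ha, e⟩ := conjN _ h1
  obtain ⟨k, hk⟩ := F.lift ha iU_mem
  have h3 := (ic (hB hg)).of_eq rfl (cZ h2 hZ hg (ic (hB hg)))
  have hZ' : F.Z ≤ cj k B := fun z hz => mem_cj.2 (hZ (by
    simpa using (mem_normalizer_iff.1 (inv_mem hk.mem) z).1 hz))
  have := eq_of_E (cj_le hB hk.mem) (cj_sq h2) (card_cj k B ▸ hc) (fun x hx t => cZ (cj_sq h2) hZ' hx)
    (conj_mem_cj.2 hg) ((hk.conj h3).of_eq e (conj1 _ iU_mem))
  exact ⟨k⁻¹, inv_mem hk.mem, by rw [← this, cj_inv_cj]⟩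

theorem eq_V {B : Subgroup G} (hB : B ≤ F.T) (h2 : ∀ x ∈ B, x * x = 1) (hc : 2 ^ 11 ≤ Nat.card B) :
    B = F.V := by
  obtain ⟨k, hk, rfl⟩ := F.eq_cj_V (hB.trans F.T_le_K) h2 hc
  refine cj_eq_iff.2 ((ic hk).mem_N.2 (line _ (ic hk).memA fun e he => ?_))
  obtain ⟨v, hv, h1⟩ := F.V_lift he
  exact (((ic hk).conj h1).mem_T.1 (hB (conj_mem_cj.2 hv))).1

end Fk

end Cfsg.Agent.Pn
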