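import Mathlib
import Cfsg.Agent.Pn.Vs
import Cfsg.Agent.FG.ClassCount

/-! No second subgroup of order eight with the property of a TI-conjugate. -/

set_option autoImplicit false

namespace Cfsg.Agent.Pn

open Cfsg.Agent.Spor Cfsg.Agent.Inv.Fz Subgroup
open Cfsg.Agent.R24 (Wc Md NoOdd)

namespace Wcl

/-- The codes with trivial square. -/
def LI : List ℕ := [0x1e4bc396782da5f0, 0x27d8639ceb14af50, 0x28d7b14ec6395fa0, 0x369c72d8be14fa50,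
  0x43dabc25168fe970, 0x52bcda3416f89e70, 0x57468a9becfd3120, 0x6ea25d917fb34c80, 0x7564b9a8fdec3120,
  0x7a1c3e58f294b6d0, 0x89badcef76452310, 0x8e35249f71cadb60, 0x95d1b7f3a6e284c0, 0xab98efdc67542310,
  0xae62bf739d518c40, 0xb25cf6183ad47e90, 0xcdef98ba67453210, 0xdcfeab8945673210, 0xdefc56749ab81230,
  0xefcd89ab54763210, 0xf1864a3d2c5b97e0, 0xf4291ac7835e6db0, 0xf92435e871acbd60, 0xfb73ea62d951c840,
  0xfcde65478ba91230, 0xfedcba9876543210]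

theorem mem_LI : ∀ a ∈ LS, mN a a = iN → a ∈ LI := by decide +kernel

theorem rank_two : ∀ a ∈ LI, ∀ b ∈ LI, mN a b = mN b a → ∀ c ∈ LI, mN a c = mN c a → mN b c = mN c b →
    a = iN ∨ b = iN ∨ c = iN ∨ mN a b = iN ∨ mN a c = iN ∨ mN b c = iN ∨ mN (mN a b) c = iN := by
  decide +kernel

theorem cM_sp (m : ℕ) {n u : ℕ} (hn : n < 16) (hu : u < 8) :
    cM m (n * sp u) = wg (bt (nb m 0) n + 2 * bt (nb m 1) n + 4 * bt (nb m 2) n) u := by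
  have k : ∀ a < 16, ∀ n < 16, ∀ e < 2, bt a (e * n) = e * bt a n := by decide +kernel
  have k2 : ∀ p < 2, ∀ q < 2, ∀ r < 2, ∀ u < 8, (bit u 1 * p ^^^ bit u 0 * q) +
      2 * (bit u 2 * p ^^^ bit u 0 * r) + 4 * (bit u 2 * q ^^^ bit u 1 * r) = wg (p + 2 * q + 4 * r) u := by
    decide +kernel
  rw [cM, nb_sp u hu n hn 0 (by decide), nb_sp u hu n hn 1 (by decide), nb_sp u hu n hn 2 (by decide)]
  simp only [k _ (nb_lt _ _) n hn _ (bit_lt _ _)]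
  exact k2 _ (bt_lt _ _) _ (bt_lt _ _) _ (bt_lt _ _) u hu

theorem eq_of_cM {m m' : ℕ} (hm : m < 4096) (hm' : m' < 4096)
    (h : ∀ k < 4096, cM m k = 0 ↔ cM m' k = 0) : m = m' := by
  have k3 : ∀ p < 8, ∀ p' < 8, (∀ u < 8, wg p u = 0 ↔ wg p' u = 0) → p = p' := by decide +kernel
  have k5 : ∀ a < 16, ∀ a' < 16, (∀ n < 16, bt a n = bt a' n) → a = a' := by decide +kernel
  have k : ∀ n < 16, bt (nb m 0) n = bt (nb m' 0) n ∧ bt (nb m 1) n = bt (nb m' 1) n ∧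
      bt (nb m 2) n = bt (nb m' 2) n := fun n hn => by
    have := k3 _ (comb_lt (bt_lt (nb m 0) n) (bt_lt (nb m 1) n) (bt_lt (nb m 2) n)) _
      (comb_lt (bt_lt (nb m' 0) n) (bt_lt (nb m' 1) n) (bt_lt (nb m' 2) n)) fun u hu => by
        rw [← cM_sp m hn hu, ← cM_sp m' hn hu]
        exact h _ (sp_lt u hu n hn)
    have := bt_lt (nb m 0) n
    have := bt_lt (nb m 1) n
    have := bt_lt (nb m' 0) n
    have := bt_lt (nb m' 1) n
    omega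
  exact ext_M hm hm' (k5 _ (nb_lt _ _) _ (nb_lt _ _) fun n hn => (k n hn).1)
    (k5 _ (nb_lt _ _) _ (nb_lt _ _) fun n hn => (k n hn).2.1)
    (k5 _ (nb_lt _ _) _ (nb_lt _ _) fun n hn => (k n hn).2.2)

variable {G : Type*} [Group G] [Finite G]

theorem relIndex_le (S : Subgroup G) (g : G) (W : Set G) (h : ∀ x ∈ S, x * g * x⁻¹ ∈ W) :
    (centralizer {g}).relIndex S ≤ W.ncard := by
  rw [← FG.ncard_conj_orbit_subgroup]
  exact Set.ncard_le_ncard (by rintro _ ⟨x, hx, rfl⟩; exact h x hx)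

theorem exists_not_mem {Z : Subgroup G} (h : Nat.card Z = 8) (l : List G) (hl : l.length < 8) :
    ∃ x ∈ Z, x ∉ l := by
  classical
  by_contra hc
  push Not at hc
  have h1 : (Z : Set G).ncard ≤ (l.toFinset : Set G).ncard :=
    Set.ncard_le_ncard fun x hx => by simpa using hc x hx
  rw [Set.ncard_coe_finset, ← Nat.card_coe_set_eq, SetLike.coe_sort_coe, h] at h1
  have := l.toFinset_card_le
  omega

end Wcl

variable {G : Type*} [Group G] [Finite G]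

namespace Fk

variable (F : Fk G) {g c : G} {a b : ℕ} {Q : Subgroup G}

theorem wcl {Z' : Subgroup G} (h1 : Z' ≤ centralizer (F.Z : Set G)) (h2 : ∀ x ∈ Z', x * x = 1)
    (h3 : Nat.card Z' = 8) (h4 : Z' ⊓ F.Z = ⊥)
    (h5 : ∀ i ∈ Z', i ≠ 1 → F.L ⊓ centralizer {i} ≤ normalizer (Z' : Set G)) : False := by
  have hinv : ∀ x ∈ Z', x⁻¹ = x := fun x hx => inv_eq_of_mul_eq_one_left (h2 x hx)
  have hcomm : ∀ x ∈ Z', ∀ y ∈ Z', x * y = y * x := fun x hx y hy => by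
    rw [← hinv _ (mul_mem hx hy), mul_inv_rev, hinv x hx, hinv y hy]
  have hic : ∀ x ∈ Z', ∃ a, F.Ic x a iU ∧ mN a a = iN := fun x hx => by
    obtain ⟨a, b, h⟩ := exists_ic (F.cZ_le_K (h1 hx))
    obtain rfl := h.mem_cZ.1 (h1 hx)
    exact ⟨a, h, ((h.mul h).mem_L.1 (by rw [h2 x hx]; exact one_mem _)).1⟩
  have hUU : mU iU iU = iU := by decide +kernel
  have hZ : ∀ x ∈ Z', x ∈ F.Z → x = 1 := fun x hx hz => mem_bot.1 (h4.le ⟨hx, hz⟩)
  obtain ⟨x, hx, hx1⟩ := Wcl.exists_not_mem h3 [1] (by simp)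
  obtain ⟨y, hy, hy1⟩ := Wcl.exists_not_mem h3 [1, x] (by simp)
  simp only [List.mem_cons, List.not_mem_nil, or_false, not_or] at hx1 hy1
  have hne : ∀ x ∈ Z', ∀ y ∈ Z', y ≠ x → x * y ≠ 1 := fun x hx y hy h e =>
    h (by rw [← hinv x hx]; exact (inv_eq_of_mul_eq_one_right e).symm)
  obtain ⟨i, hi, hi1, hiL⟩ : ∃ i ∈ Z', i ≠ 1 ∧ i ∈ F.L := by
    obtain ⟨w, hw, hw1⟩ := Wcl.exists_not_mem h3 [1, x, y, x * y] (by simp)
    simp only [List.mem_cons, List.not_mem_nil, or_false, not_or] at hw1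
    obtain ⟨a, ha, ha2⟩ := hic x hx
    obtain ⟨b, hb, hb2⟩ := hic y hy
    obtain ⟨c, hc, hc2⟩ := hic w hw
    have hab := (ha.mul hb).of_eq rfl hUU
    rcases Wcl.rank_two a (Wcl.mem_LI a ha.memA ha2) b (Wcl.mem_LI b hb.memA hb2)
      ((ha.mul hb).unique (hcomm x hx y hy ▸ hb.mul ha)).1 c (Wcl.mem_LI c hc.memA hc2)
      ((ha.mul hc).unique (hcomm x hx w hw ▸ hc.mul ha)).1
      ((hb.mul hc).unique (hcomm y hy w hw ▸ hc.mul hb)).1 with h | h | h | h | h | h | h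
    · exact ⟨x, hx, hx1, ha.mem_L.2 ⟨h, rfl⟩⟩
    · exact ⟨y, hy, hy1.1, hb.mem_L.2 ⟨h, rfl⟩⟩
    · exact ⟨w, hw, hw1.1, hc.mem_L.2 ⟨h, rfl⟩⟩
    · exact ⟨_, mul_mem hx hy, hne x hx y hy hy1.2, hab.mem_L.2 ⟨h, rfl⟩⟩
    · exact ⟨_, mul_mem hx hw, hne x hx w hw hw1.2.1, (ha.mul hc).mem_L.2 ⟨h, hUU⟩⟩
    · exact ⟨_, mul_mem hy hw, hne y hy w hw hw1.2.2.1, (hb.mul hc).mem_L.2 ⟨h, hUU⟩⟩
    · exact ⟨_, mul_mem (mul_mem hx hy) hw, hne _ (mul_mem hx hy) w hw hw1.2.2.2,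
        (hab.mul hc).mem_L.2 ⟨h, hUU⟩⟩
  have hL : ∀ j ∈ Z', j ∈ F.L := fun j hj => by
    by_contra hjL
    obtain ⟨a, ha, ha2⟩ := hic j hj
    have e1 := ha.le_relIndex (fun e => hjL (ha.mem_L.2 ⟨e, rfl⟩)) ha2
    obtain ⟨m, hm⟩ := exists_lc hiL
    have e2 : (centralizer {i}).relIndex F.L ≤ 8 := by
      refine (Wcl.relIndex_le F.L i ((fun z => i * z) '' F.Z) fun l hl => ?_).trans ?_
      · obtain ⟨c, hc, e⟩ := hm.eq_mul (((ic_id.2 hl).conj_l hm).of_eq (aM_id m hm.lt))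
        exact ⟨_, F.z_mem hc, e.symm⟩
      · refine (Set.ncard_image_le).trans ?_
        rw [← Nat.card_coe_set_eq, SetLike.coe_sort_coe, card_Z]
    have e3 : (centralizer {j}).relIndex (centralizer {i} ⊓ F.L) ≤ 7 := by
      refine (Wcl.relIndex_le _ j ((Z' : Set G) \ {1}) fun l hl => ⟨?_, fun e => hjL ?_⟩).trans ?_
      · exact (mem_normalizer_iff.1 (h5 i hi hi1 ⟨hl.2, hl.1⟩) j).1 hj
      · rw [conj_eq_one_iff.1 e]; exact one_mem _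
      · rw [Set.ncard_sdiff_singleton_of_mem (one_mem Z'), ← Nat.card_coe_set_eq, SetLike.coe_sort_coe, h3]
    have e4 := relIndex_inf_mul_relIndex (centralizer {j}) (centralizer {i}) F.L
    have e5 : (centralizer {j}).relIndex F.L ≤ (centralizer {j} ⊓ centralizer {i}).relIndex F.L :=
      relIndex_le_of_le_left inf_le_left index_ne_zero_of_finite
    have e6 := Nat.mul_le_mul e3 e2
    omega
  have key : ∀ {x y m m'}, x ∈ Z' → x ≠ 1 → y ∈ Z' → F.Lc x m → F.Lc y m' → ∀ k < 4096,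
      cM m k = 0 → cM m' k = 0 := fun {x y m m'} hx hx1 hy hm hm' k hk e => by
    have hl := F.lc_l hk
    have hn := h5 x hx hx1 ⟨hl.mem, mem_centralizer_singleton_iff.2 ((hm.comm_iff hl).2 e).symm⟩
    have e1 := hZ _ (mul_mem ((mem_normalizer_iff.1 hn y).1 hy) (inv_mem hy))
      (hl.comm hm' ▸ F.z_mem (cM_lt _ _))
    rw [hl.comm hm', F.z_eq_one (cM_lt _ _), cM_symm] at e1
    exact e1
  obtain ⟨m, hm⟩ := exists_lc (hL x hx)
  obtain ⟨m', hm'⟩ := exists_lc (hL y hy)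
  obtain rfl := Wcl.eq_of_cM hm.lt hm'.lt fun k hk =>
    ⟨key hx hx1 hy hm hm' k hk, key hy hy1.1 hx hm' hm k hk⟩
  exact hne x hx y hy hy1.2 (hZ _ (mul_mem hx hy) ((hm.mul hm').mem_Z.2 (Nat.xor_self m)))

/-- The centraliser of `s` in `N` normalises `Z` only if `N` does. -/
theorem N_le_K (h : F.Y ≤ F.K) : F.N ≤ F.K := fun n hn => by
  have hZV : F.Z ≤ F.V := (F.Z_le_sub _).trans F.V0_le_V
  have hV : cj n F.Z ≤ F.V := (cj_mono hZV).trans (cj_eq_iff.2 hn).le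
  have tr : ∀ i ∈ F.Z, i ≠ 1 → ∃ k ∈ F.K, k ∈ F.N ∧ k * F.s * k⁻¹ = i := fun i hi h1 => by
    obtain ⟨c, hc, rfl⟩ := (F.memZ i).1 hi
    obtain ⟨b, hb, e⟩ := trans_Z c hc fun e => h1 ((F.z_eq_one hc).2 e)
    obtain ⟨k, hk⟩ := F.lift iN_mem hb
    exact ⟨k, hk.mem, hk.mem_N.2 (by decide +kernel), e ▸ hk.conj_z (by decide)⟩
  have tr' : ∀ i ∈ cj n F.Z, i ≠ 1 → ∃ k ∈ F.K, k ∈ F.N ∧ n * k * F.s * (n * k)⁻¹ = i :=
    fun i hi h1 => by
      obtain ⟨k, hk, hkN, e⟩ := tr _ (mem_cj.1 hi) fun e => h1 (by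
        have : i = n * (n⁻¹ * i * n) * n⁻¹ := by group
        rw [this, e]; group)
      refine ⟨k, hk, hkN, ?_⟩
      calc _ = n * (k * F.s * k⁻¹) * n⁻¹ := by group
        _ = i := by rw [e]; group
  by_cases hb : cj n F.Z ⊓ F.Z = ⊥
  · refine (F.wcl (hV.trans F.V_le_cZ) (fun x hx => F.sqV x (hV hx)) (by rw [card_cj, card_Z]) hb
      fun i hi h1 l hl => ?_).elim
    obtain ⟨k, hk, hkN, rfl⟩ := tr' i hi h1
    have hnk := mul_mem hn hkN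
    have h2 : (n * k)⁻¹ * l * (n * k) ∈ F.Y :=
      ⟨mem_cj.1 (cj_centralizer_singleton (n * k) F.s ▸ hl.2),
        F.N.mul_mem (F.N.mul_mem (F.N.inv_mem hnk) (F.L_le_N hl.1)) hnk⟩
    have h3 := mem_cj.2 (h h2)
    rwa [cj_normalizer, ← cj_cj, cj_eq_iff.2 hk] at h3
  · obtain ⟨⟨i, hi⟩, h1⟩ := ne_bot_iff_exists_ne_one.1 hb
    have h1' : i ≠ 1 := fun e => h1 (Subtype.ext e)
    obtain ⟨k, hk, hkN, e⟩ := tr i hi.2 h1'
    obtain ⟨k', hk', hkN', e'⟩ := tr' i hi.1 h1'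
    have h2 : k⁻¹ * (n * k') ∈ F.Y := ⟨F.mem_H.2 (by
      calc F.s * (k⁻¹ * (n * k')) = k⁻¹ * (k * F.s * k⁻¹) * (n * k') := by group
        _ = _ := by rw [e, ← e']; group), F.N.mul_mem (F.N.inv_mem hkN) (F.N.mul_mem hn hkN')⟩
    have h3 := mul_mem (mul_mem hk (h h2)) (inv_mem hk')
    rwa [mul_inv_cancel_left, mul_inv_cancel_right] at h3

end Fk

end Cfsg.Agent.Pn
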